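/- Jobs FR and KS of `blueprints/C6P.md`. -/
import Cfsg.Agent.H53.C6Spec
import Cfsg.Agent.H15.KFComp
import Cfsg.Agent.H22.HallHigman
import Cfsg.Agent.H1.InvSylow
import Cfsg.Agent.H98.Sylow

set_option autoImplicit false
set_option linter.unusedSectionVars false

namespace H72.C6

open Matrix Cfsg.Geo H25 H53.C6 H98 Subgroup Polynomial

universe u

variable {F : Type u} [Field F] [Finite F] {r : ℕ} [NeZero r] {ω : Fˣ} {G : Subgroup (GL (ZMod r) F)}

theorem sc_dp (h : orderOf ω = r) (c : Fˣ) (n : ℕ) :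
    sc _ c * dp r ω 2 ^ n = dg fun i => c * w ω ((n : ZMod r) * i ^ 2) := by
  rw [dp_pow h, ← dg_const, ← map_mul]; rfl

theorem dp_r (h : orderOf ω = r) : dp r ω 2 ^ r = 1 := by
  rw [dp_pow h, ← map_one dg]; congr 1; ext i; simp

theorem two_ne (hf : Fld r ω) : (1 : ZMod r) ≠ -1 := by rcases hf.hr with rfl | rfl <;> decide

theorem dg_tt_ne (hf : Fld r ω) (v : ZMod r → Fˣ) : dg v * tt F r ≠ 1 := fun e => by
  have := congrArg (fun g : GL (ZMod r) F => g.val 1 1) e
  simp [tt, hh, dg_pm_apply, two_ne hf] at this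

theorem pz {H : Type*} [Group H] {p n : ℕ} {x : H} (h : x ^ p ^ n = 1) : IsPGroup p (zpowers x) :=
  isPGroup_iff_forall.2 <| by
    rintro _ ⟨j, rfl⟩
    exact ⟨n, by rw [← zpow_natCast, ← _root_.zpow_mul, mul_comm, _root_.zpow_mul, zpow_natCast, h,
      _root_.one_zpow]⟩

theorem pP (hf : Fld r ω) : IsPGroup r (zpowers (dp r ω 2)) :=
  pz (n := 1) (by rw [pow_one, dp_r hf.ord])

theorem syl (hf : Fld r ω) (yp : YP ω G) {L : Subgroup (GL (ZMod r) F)} (hL : L ≤ G)
    (ht : ∀ l ∈ L, Commute l (tt F r)) (hP : dp r ω 2 ∈ L) (hω : sc _ ω ∉ L) :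
    IsSyl r (zpowers (dp r ω 2)) L := by
  have := Fact.mk hf.prime
  have key : ∀ y ∈ L, Commute y (dp r ω 2) → (∃ k, y ^ r ^ k = 1) → y ∈ zpowers (dp r ω 2) := by
    rintro y hy c ⟨k, hk⟩
    obtain ⟨a, n, e | e⟩ := yp y (hL hy) c (ht y hy)
    · have h1 : sc _ a ∈ L := (mul_mem_cancel_right (pow_mem hP n)).1 (e ▸ hy)
      have h2 : a ^ r ^ (k + 1) = 1 := by
        have : y ^ r ^ (k + 1) = 1 := by rw [pow_succ, pow_mul, hk, one_pow]
        rw [e, (show Commute _ _ from sc_comm a _).mul_pow, ← pow_mul, mul_comm n, pow_mul,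
          pow_succ' r, pow_mul (dp r ω 2), dp_r hf.ord, one_pow, one_pow, mul_one, ← map_pow,
          ← dg_const, ← map_one dg] at this
        rw [pow_succ']
        exact congrFun (dg_inj this) 0
      obtain ⟨j, -, hj⟩ := (Nat.dvd_prime_pow hf.prime).1 (orderOf_dvd_of_pow_eq_one h2)
      rcases j with _ | j
      · rw [e, orderOf_eq_one_iff.1 hj, map_one, one_mul]
        exact pow_mem (mem_zpowers _) n
      obtain ⟨i, hi⟩ := exists_w hf.ord (c := a ^ r ^ j) (by
        rw [← pow_mul, ← pow_succ, ← hj, pow_orderOf_eq_one])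
      have i0 : i ≠ 0 := fun c => pow_ne_one_of_lt_orderOf (pow_ne_zero j hf.prime.ne_zero)
        (hj ▸ Nat.pow_lt_pow_right hf.prime.one_lt j.lt_succ_self) (by rw [hi, c, w_zero])
      refine (hω ?_).elim
      have h3 := pow_mem (pow_mem h1 (r ^ j)) (i⁻¹).val
      rwa [← map_pow, ← map_pow, hi, w_pow hf.ord, ZMod.natCast_zmod_val, inv_mul_cancel₀ i0,
        w_one hf.ord] at h3
    · have h1 : Commute (sc _ a * dp r ω 2 ^ n) (tt F r) :=
        (show Commute _ _ from sc_comm a _).mul_left ((comm_dp_tt 1).pow_left n)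
      obtain ⟨m, hm⟩ : Odd (r ^ k) := (hf.prime.odd_of_ne_two (by rcases hf.hr with h | h <;> omega)).pow
      rw [e, h1.mul_pow, sc_dp hf.ord, ← map_pow, hm, pow_succ (tt F r), pow_mul (tt F r),
        pow_two (tt F r), tt_mul_tt, one_pow, one_mul] at hk
      exact (dg_tt_ne hf _ hk).elim
  refine ⟨zpowers_le.2 hP, pP hf, fun Q hQ h1 h2 => le_antisymm (fun q hq => ?_) h1⟩
  have o : orderOf (dp r ω 2) = r := orderOf_eq_prime (dp_r hf.ord) fun e => by
    have := congrFun (dg_inj (e.trans (map_one dg).symm)) 1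
    simp [w_eq_one_iff hf.ord] at this
  haveI : Nontrivial Q := (nontrivial_iff_ne_bot Q).2 fun e => by
    rw [mem_bot.1 ((h1.trans e.le) (mem_zpowers _)), orderOf_one] at o
    exact hf.prime.one_lt.ne o
  haveI := hQ.center_nontrivial
  obtain ⟨⟨z, hz⟩, z1⟩ := exists_ne (1 : center Q)
  have c : ∀ q ∈ Q, Commute q (z : GL (ZMod r) F) := fun q hq =>
    congrArg Subtype.val (mem_center_iff.1 hz ⟨q, hq⟩)
  have h3 := key z (h2 z.2) (c _ (h1 (mem_zpowers _))).symm (isPGroup_iff_forall.1 hQ _ z.2)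
  obtain ⟨m, hm⟩ := mem_zpowers_iff.1 (mem_zpowers_of_prime_card (G := zpowers (dp r ω 2))
    (g := ⟨z, h3⟩) (g' := ⟨_, mem_zpowers _⟩) (by rw [Nat.card_zpowers, o])
    fun e => z1 (Subtype.ext (Subtype.ext
      (show (z : GL (ZMod r) F) = 1 from congrArg Subtype.val e))))
  replace hm : (z : GL (ZMod r) F) ^ m = dp r ω 2 := congrArg Subtype.val hm
  exact key q (h2 hq) (hm ▸ (c q hq).zpow_right m) (isPGroup_iff_forall.1 hQ q hq)

theorem jobFR : JobFR.{u} := by
  intro F _ _ r _ ω G hf hb yp L hL ht hn hP hω c hc ct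
  have := Fact.mk hf.prime
  have s := syl hf yp hL ht hP hω
  obtain ⟨l, hl, e⟩ := (s.cj_of_mem_normalizer (mem_normalizer_fintype (hn c hc ct))).exists_cj_eq s
  rw [cj_cj] at e
  obtain ⟨k, hk⟩ := (mem_powers_iff_mem_zpowers.2 (e.le (conj_mem_cj (mem_zpowers _))) :
    l * c * dp r ω 2 * (l * c)⁻¹ ∈ Submonoid.powers _)
  replace hk : dp r ω 2 ^ k * (l * c) = l * c * dp r ω 2 := by rw [show _ ^ k = _ from hk]; group
  obtain ⟨i, hi⟩ : ∃ i, (l * c).val i 1 ≠ 0 := by
    by_contra! h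
    exact ((l * c).isUnit.map detMonoidHom).ne_zero (det_eq_zero_of_column_eq_zero 1 h)
  have h1 := congrArg (fun g : GL (ZMod r) F => g.val i 1) hk
  simp only [dp_pow hf.ord] at h1
  rw [Units.val_mul, Units.val_mul _ (dp r ω 2), dp, dg_val, dg_val, diagonal_mul, mul_diagonal,
    mul_comm, mul_right_inj' hi, Units.val_inj, w_inj hf.ord, one_pow] at h1
  have i0 : i ≠ 0 := by rintro rfl; simp at h1
  have h2 := hh_conj_dp hf.ord (Units.mk0 i i0) 2
  rw [show dp r ω 2 ^ _ = dp r ω 2 ^ k by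
    rw [dp_pow hf.ord, dp_pow hf.ord, ZMod.natCast_zmod_val, eq_inv_of_mul_eq_one_left h1]
    simp] at h2
  have h3 := hn _ (hb.hh (Units.mk0 i i0)) (comm_hh_tt _)
  obtain ⟨μ, n, h4⟩ := yp ((hh F (Units.mk0 i i0))⁻¹ * (l * c))
    (mul_mem (inv_mem (hb.hh _)) (mul_mem (hL hl) hc)) (by
      rw [commute_iff_eq, mul_assoc, ← hk, ← h2]; group)
    ((comm_hh_tt _).inv_left.mul_left ((ht l hl).mul_left ct))
  have h5 := mul_mem (inv_mem hl) (h3 _ (pow_mem hP n))
  rcases h4 with h4 | h4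
  · refine ⟨_, h5, μ, Units.mk0 i i0, ?_⟩
    rw [inv_mul_eq_iff_eq_mul, ← eq_inv_mul_iff_mul_eq] at h4
    rw [h4, mul_assoc _ (sc _ μ), sc_comm, sc_comm]; group
  · refine ⟨_, h5, μ, Units.mk0 i i0 * -1, ?_⟩
    rw [inv_mul_eq_iff_eq_mul, ← eq_inv_mul_iff_mul_eq] at h4
    rw [h4, ← hh_mul, ← tt, mul_assoc _ (sc _ μ), ← mul_assoc (sc _ μ), sc_comm, sc_comm]; group

/-- the elements acting trivially on the `-1`-eigenspace of `t` -/
def K0 (G : Subgroup (GL (ZMod r) F)) : Subgroup (GL (ZMod r) F) where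
  carrier := {k | k ∈ G ∧ Commute k (tt F r) ∧ k.val * (1 - (tt F r).val) = 1 - (tt F r).val}
  one_mem' := ⟨G.one_mem, Commute.one_left _, one_mul _⟩
  mul_mem' := fun {a b} ha hb => ⟨G.mul_mem ha.1 hb.1, ha.2.1.mul_left hb.2.1, by
    rw [Units.val_mul, mul_assoc, hb.2.2, ha.2.2]⟩
  inv_mem' := fun {a} ha => ⟨G.inv_mem ha.1, ha.2.1.inv_left, by
    conv_lhs => rw [← ha.2.2, ← mul_assoc, Units.inv_mul, one_mul]⟩

theorem comm_val {a : GL (ZMod r) F} (h : Commute a (tt F r)) : Commute a.val (1 - (tt F r).val) :=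
  (Commute.one_right _).sub_right (congrArg Units.val h.eq)

theorem K0_nor {g : GL (ZMod r) F} (hg : g ∈ G) (c : Commute g (tt F r)) :
    g ∈ normalizer (K0 G : Set (GL (ZMod r) F)) := mem_normalizer_fintype fun k hk =>
  ⟨mul_mem (mul_mem hg hk.1) (inv_mem hg), (c.mul_left hk.2.1).mul_left c.inv_left, by
    rw [Units.val_mul, Units.val_mul, mul_assoc, (comm_val c.inv_left).eq, ← mul_assoc, mul_assoc g.val,
      hk.2.2, (comm_val c).eq, mul_assoc, Units.mul_inv, mul_one]⟩

theorem K0_cen (hf : Fld r ω) (yp : YP ω G) {k : GL (ZMod r) F} (hk : k ∈ K0 G)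
    (c : Commute k (dp r ω 2)) : k = 1 ∨ k = sc _ (-1) * tt F r := by
  have key : ∀ (a b : Fˣ) (n : ℕ), (sc _ a * dp r ω 2 ^ n).val * (1 - (tt F r).val) =
      (b : F) • (1 - (tt F r).val) → sc _ a * dp r ω 2 ^ n = sc _ b := fun a b n e => by
    rw [sc_dp hf.ord] at e ⊢
    have h1 := congrFun (congrFun e 1) 1
    have h2 := congrFun (congrFun e 2) 2
    have n2 : (2 : ZMod r) ≠ -2 := by rcases hf.hr with rfl | rfl <;> decide
    have n3 : ∀ x : ZMod r, x * 1 ^ 2 = x * 2 ^ 2 → x = 0 := by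
      rcases hf.hr with rfl | rfl <;> decide
    simp only [dg_val, diagonal_mul, Matrix.sub_apply, one_apply_eq, tt_apply, two_ne hf, n2, if_false,
      sub_zero, mul_one, Matrix.smul_apply, smul_eq_mul, Units.val_inj] at h1 h2
    have h3 := n3 _ ((w_inj hf.ord).1 (mul_left_cancel (h1.trans h2.symm)))
    rw [h3, zero_mul, w_zero, mul_one] at h1
    simp [h3, h1, dg_const]
  obtain ⟨a, n, e | e⟩ := yp k hk.1 c hk.2.1
  · exact .inl (by rw [e, key a 1 n (by rw [← e, hk.2.2]; simp), map_one])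
  · refine .inr (e.trans (congrArg (· * _) (key a (-1) n ?_)))
    have h1 := hk.2.2
    rw [e, Units.val_mul, mul_assoc, mul_sub, ← Units.val_mul, tt_mul_tt, mul_one, Units.val_one,
      ← neg_sub, mul_neg, neg_eq_iff_eq_neg] at h1
    simpa using h1

theorem neg_tt_comm (g : GL (ZMod r) F) (c : Commute g (tt F r)) :
    Commute g (sc _ (-1) * tt F r) := (show Commute _ g from sc_comm _ g).symm.mul_right c

theorem neg_tt_sq : (sc _ (-1) * tt F r) ^ 2 = 1 := by
  rw [(show Commute _ _ from sc_comm _ _).mul_pow, pow_two (tt F r), tt_mul_tt, ← map_pow]; simp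

theorem aeval_idem {R : Type*} [Ring R] [Algebra F R] {a e : R} (he : e * e = e) (c : Commute a e)
    (g : F[X]) : aeval (a * e + (1 - e)) g = aeval a g * e + eval 1 g • (1 - e) := by
  have p : ∀ n : ℕ, (a * e + (1 - e)) ^ n = a ^ n * e + (1 - e) := fun n => by
    induction n with
    | zero => simp
    | succ n ih =>
      rw [pow_succ, ih, pow_succ]
      have h1 : e * (a * e) = a * e := by rw [← mul_assoc, ← c.eq, mul_assoc, he]
      simp only [add_mul, mul_add, mul_sub, sub_mul, mul_assoc, h1, he, mul_one, one_mul]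
      abel
  induction g using Polynomial.induction_on' with
  | add f g h1 h2 => rw [map_add, h1, h2, map_add, eval_add, add_mul, add_smul]; abel
  | monomial n b => simp [aeval_monomial, p, Algebra.smul_def, mul_add, mul_assoc]

theorem sq5 : (Finset.univ.image fun i : ZMod 5 => i ^ 2).card + 1 < 5 := by decide

theorem sq7 : (Finset.univ.image fun i : ZMod 7 => i ^ 2).card + 1 < 7 := by decide

theorem sq_card (hf : Fld r ω) : (Finset.univ.image fun i : ZMod r => i ^ 2).card + 1 < r := by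
  rcases hf.hr with rfl | rfl
  exacts [sq5, sq7]

theorem cent (hf : Fld r ω) (h2 : (2 : F) ≠ 0) {T : Subgroup (GL (ZMod r) F)} (hT : T ≤ K0 G)
    (two : IsPGroup 2 T) (hn : dp r ω 2 ∈ normalizer (T : Set (GL (ZMod r) F))) :
    dp r ω 2 ∈ centralizer (T : Set (GL (ZMod r) F)) := by
  classical
  have := Fact.mk hf.prime
  obtain ⟨e, he⟩ : ∃ e : Matrix (ZMod r) (ZMod r) F, 1 - e = (2 : F)⁻¹ • (1 - (tt F r).val) :=
    ⟨_, sub_sub_cancel _ _⟩
  have tt2 : (tt F r).val * (tt F r).val = 1 := congrArg Units.val tt_mul_tt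
  have e1 : (1 - e) * (1 - e) = 1 - e := by
    rw [he, smul_mul_smul_comm, mul_sub, sub_mul, sub_mul, tt2]
    simp only [mul_one, one_mul]
    rw [show (1 - (tt F r).val - ((tt F r).val - 1)) = (2 : F) • (1 - (tt F r).val) by
      rw [two_smul]; abel, smul_smul, mul_assoc, inv_mul_cancel₀ h2, mul_one]
  have ee : e * e = e := (IsIdempotentElem.one_sub_iff (R := Matrix (ZMod r) (ZMod r) F)).1 e1
  have ce : ∀ a : GL (ZMod r) F, Commute a (tt F r) → Commute a.val e := fun a c => by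
    have : Commute a.val (1 - (1 - e)) := (Commute.one_right _).sub_right (he ▸ (comm_val c).smul_right _)
    simpa using this
  let ψ : centralizer {tt F r} →* GL (ZMod r) F := MonoidHom.toHomUnits
    { toFun := fun a => a.val.val * e + (1 - e)
      map_one' := by simp
      map_mul' := fun a b => by
        have h1 : e * (b.val.val * e) = b.val.val * e := by
          rw [← mul_assoc, ← (ce _ (mem_centralizer_singleton_iff.1 b.2)).eq, mul_assoc, ee]
        simp only [Subgroup.coe_mul, Units.val_mul, add_mul, mul_add, mul_sub, sub_mul, mul_assoc, h1, ee,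
          mul_one, one_mul]
        abel }
  have ψK : ∀ a : centralizer {tt F r}, a.val ∈ K0 G → ψ a = a := fun a ha => Units.ext (by
    change a.val.val * e + (1 - e) = _
    rw [← show a.val.val * (1 - e) = 1 - e by rw [he, mul_smul_comm, ha.2.2], ← mul_add,
      add_sub_cancel, mul_one])
  let P : centralizer {tt F r} := ⟨dp r ω 2, mem_centralizer_singleton_iff.2 (comm_dp_tt 1)⟩
  have cj : ∀ k ∈ T, ψ P * k * (ψ P)⁻¹ = dp r ω 2 * k * (dp r ω 2)⁻¹ := fun k hk => by
    let a : centralizer {tt F r} := ⟨k, mem_centralizer_singleton_iff.2 (hT hk).2.1⟩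
    have := ψK (P * a * P⁻¹) (hT (conj_mem_of_mem_normalizer hn hk))
    rwa [map_mul, map_mul, map_inv, ψK a (hT hk)] at this
  by_contra nc
  let K := AlgebraicClosure F
  let Λ : Matrix (ZMod r) (ZMod r) F →+* Module.End K (ZMod r → K) :=
    (toLinAlgEquiv' (R := K) (n := ZMod r)).toRingEquiv.toRingHom.comp (algebraMap F K).mapMatrix
  have hS := sq_card hf
  set S := Finset.univ.image fun i : ZMod r => i ^ 2
  let g : F[X] := ∏ a ∈ S, (X - C (w ω a : F))
  have g0 : ∀ i : ZMod r, eval (w ω (i ^ 2) : F) g = 0 := fun i => by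
    rw [eval_prod]
    exact Finset.prod_eq_zero (Finset.mem_image_of_mem _ (Finset.mem_univ i)) (by simp)
  have gm : (g.map (algebraMap F K)).Monic := (monic_prod_of_monic _ _ fun _ _ => monic_X_sub_C _).map _
  have gd : (g.map (algebraMap F K)).natDegree = S.card := by
    rw [natDegree_map, natDegree_finsetProd_X_sub_C_eq_card]
  have dd : (X ^ r ^ (0 + 1) - 1 : K[X]).natDegree = r := by
    rw [zero_add, pow_one, ← C_1, natDegree_X_pow_sub_C]
  rcases H22.hh_faithful (K := K) (Λ.toMonoidHom.comp (Units.coeHom _))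
    ((Λ.injective).comp Units.val_injective) (p := r) (q := 2)
    (by rcases hf.hr with h | h <;> omega) (by rw [← map_natCast (algebraMap F K), _root_.map_ne_zero]; exact_mod_cast h2) T two (ψ P)
    (mem_normalizer_fintype fun k hk => cj k hk ▸ conj_mem_of_mem_normalizer hn hk) 0
    (by rw [zero_add, pow_one, ← map_pow, show P ^ r = 1 from Subtype.ext (dp_r hf.ord), map_one])
    (fun c => nc fun k hk => by
      have := cj k hk
      rw [pow_zero, pow_one] at c
      rw [← c k hk, mul_inv_cancel_right, eq_mul_inv_iff_mul_eq] at this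
      exact this) (g.map (algebraMap F K)) (by
      change aeval (Λ ((dp r ω 2).val * e + (1 - e))) _ = 0
      rw [← map_aeval_eq_aeval_map (by
          ext; simp [Λ, algebraMap_matrix_apply, Pi.single_apply]), aeval_idem ee (ce _ (comm_dp_tt 1)),
        show eval 1 g = 0 by simpa using g0 0, zero_smul, add_zero, dp, dg_val,
        show (diagonal fun i : ZMod r => (w ω (i ^ 2) : F)) =
          diagonalAlgHom F (fun i : ZMod r => (w ω (i ^ 2) : F)) from rfl, aeval_algHom_apply,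
        show aeval (fun i : ZMod r => (w ω (i ^ 2) : F)) g = 0 from funext fun i => by
          rw [aeval_fn_apply, coe_aeval_eq_eval, g0]; rfl, map_zero, zero_mul, map_zero])
    with h | ⟨k, l, m, μ, h0, -, -, -, h⟩
  · have := natDegree_le_of_dvd h gm.ne_zero
    omega
  · obtain rfl : k = 0 := by omega
    rw [pow_zero, pow_one X] at h
    have := natDegree_le_of_dvd h (gm.mul (monic_X_sub_C μ)).ne_zero
    rw [gm.natDegree_mul (monic_X_sub_C μ), natDegree_X_sub_C] at this
    omega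

theorem jobKS : JobKS.{u} := by
  intro F _ _ r _ ω G hf hb h2 yp k hk c e n hn
  have := Fact.mk hf.prime
  have hA : zpowers (dp r ω 2) ≤ normalizer (K0 G : Set (GL (ZMod r) F)) :=
    zpowers_le.2 (K0_nor hb.p (comm_dp_tt 1))
  have nd := H15.KF.not_dvd_of_isPGroup_inf (p := 2) (q := r)
    (by rcases hf.hr with h | h <;> omega) (pP hf) hA (isPGroup_iff_forall.2 fun x hx => ⟨1, by
      rcases K0_cen hf yp hx.1 (hx.2 _ (mem_zpowers _)).symm with h | h
      · rw [h, one_pow]
      · rw [h, pow_one, neg_tt_sq]⟩)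
  obtain ⟨m, hm⟩ := (pP hf).exists_card_eq
  obtain ⟨T, hT⟩ := H1.exists_invariant_sylow_subgroup _ _ hA
    (hm ▸ (hf.prime.coprime_iff_not_dvd.2 nd).pow_left m) (.inl inferInstance) 2
  have s := isSyl_map_subtype T
  obtain ⟨g, hg, h1⟩ := s.exists_cj_le (pz hn) (zpowers_le.2 ⟨hk, c, e⟩)
  have h3 := h1 (conj_mem_cj (mem_zpowers k))
  refine (K0_cen hf yp (s.le h3) (cent hf h2 s.le s.isPGroup (hT (mem_zpowers _)) _ h3)).imp
    conj_eq_one_iff.1 fun h => ?_
  rw [mul_inv_eq_iff_eq_mul, ← (neg_tt_comm g hg.2.1).eq] at h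
  exact mul_left_cancel h

end H72.C6
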