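/- Job TR of `blueprints/C6P.md`: a transposition matrix in `G`. -/
import Cfsg.Agent.H53.C6Spec

set_option autoImplicit false
set_option linter.unusedSectionVars false

namespace H72.C6T

open Matrix Cfsg.Geo H25 H53.C6 Subgroup Equiv

universe u

variable {F : Type u} [Field F] [Finite F] {r : ℕ} [NeZero r] {ω : Fˣ} {G : Subgroup (GL (ZMod r) F)}

theorem col2 {ι : Type} [Fintype ι] (g : Matrix ι ι F) (x y : ι → F) (A : Matrix (Fin 2) (Fin 2) F) :
    g * (of fun a j => ![x a, y a] j) = (of fun a j => ![x a, y a] j) * A ↔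
      g *ᵥ x = A 0 0 • x + A 1 0 • y ∧ g *ᵥ y = A 0 1 • x + A 1 1 • y := by
  simp [← Matrix.ext_iff, funext_iff, Fin.forall_fin_two, forall_and, mul_apply, mulVec, dotProduct,
    mul_comm]

theorem sumw (h : orderOf ω = r) (a : ZMod r) :
    ∑ i, (w ω (a * i) : F) = if a = 0 then (r : F) else 0 := by
  split_ifs with c
  · simp [c]
  · exact sum_w h c

/-- the vector of the reflection -/
def vv (ω : Fˣ) (i : ZMod r) : F := w ω i - w ω (-i)

theorem two_ne (hf : Fld r ω) : (2 : ZMod r) ≠ 0 := by rcases hf.hr with rfl | rfl <;> decide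

theorem vv_ne (hf : Fld r ω) {i : ZMod r} (hi : i ≠ 0) : vv ω i ≠ 0 := fun e => by
  have := Fact.mk hf.prime
  rw [vv, sub_eq_zero, Units.val_inj, w_inj hf.ord] at e
  exact mul_ne_zero (two_ne hf) hi (by linear_combination e)

theorem vv_sq (hf : Fld r ω) : ∑ i : ZMod r, vv ω i * vv ω i = -2 * r := by
  have : ∀ i : ZMod r, vv ω i * vv ω i = w ω (2 * i) + w ω (-2 * i) - 2 := fun i => by
    rw [two_mul, neg_mul, two_mul, neg_add, w_add hf.ord, w_add hf.ord, vv, w_neg hf.ord]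
    simp only [Units.val_mul, Units.val_inv_eq_inv_val]
    field_simp
    ring
  simp only [this, Finset.sum_sub_distrib, Finset.sum_add_distrib, sum_w hf.ord (two_ne hf),
    sum_w hf.ord (neg_ne_zero.2 (two_ne hf))]
  simp [mul_comm]

theorem refl_val (hf : Fld r ω) : (Ph r ω * pm (swap 1 (-1)) * (Ph r ω)⁻¹).val =
    1 + (r : F)⁻¹ • vecMulVec (vv ω) (vv ω) := by
  have r0 := cast_ne_zero hf.ord
  have n1 : (1 : ZMod r) ≠ -1 := fun e => two_ne hf (by linear_combination e)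
  rw [Units.val_mul, Units.mul_inv_eq_iff_eq_mul, add_mul, one_mul, smul_mul_assoc, vecMulVec_mul]
  ext a k
  have : (vv ω ᵥ* (Ph r ω).val) k = (if k = -1 then (r : F) else 0) - if k = 1 then (r : F) else 0 := by
    simp only [← add_eq_zero_iff_eq_neg, ← sub_eq_zero (a := k) (b := 1)]
    rw [← sumw hf.ord, ← sumw hf.ord, ← Finset.sum_sub_distrib]
    refine Finset.sum_congr rfl fun i _ => ?_
    change vv ω i * (Ph r ω).val i k = _
    rw [Ph_apply hf.ord, vv, add_mul, sub_mul k, one_mul, sub_eq_add_neg (k * i), w_add hf.ord,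
      w_add hf.ord, mul_comm i k]
    push_cast
    ring
  rw [Units.val_mul, mul_pm_apply, Matrix.add_apply, Matrix.smul_apply, vecMulVec_apply, this,
    Ph_apply hf.ord, Ph_apply hf.ord]
  by_cases h1 : k = 1
  · simp [h1, n1, vv]; field_simp; ring
  by_cases h2 : k = -1
  · simp [h2, n1.symm, vv]; field_simp; ring
  simp [h1, h2, swap_apply_of_ne_of_ne]

theorem hm_pair (hf : Fld r ω) (hb : Base ω G) (h : pm (swap 1 (-1)) ∈ G) {i : ZMod r} (hi : i ≠ 0)
    (j : ZMod r) : hm 0 (w ω j)⁻¹ * hm i (w ω j) ∈ G := by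
  have := Fact.mk hf.prime
  have t := two_ne hf
  have h1 := hb.conj (Units.mk0 (i / 2) (div_ne_zero hi t)) (i / 2) h
  rw [← map_inv, ← map_mul, ← map_mul, ← swap_apply_apply, af_apply, af_apply, Units.val_mk0,
    show i / 2 * 1 + i / 2 = i by field_simp; ring, show i / 2 * -1 + i / 2 = 0 by ring] at h1
  have h2 := pow_mem (mul_mem hb.d (inv_mem (mul_mem (mul_mem h1 hb.d) (inv_mem h1)))) (j / i).val
  rw [dp, pm_conj_dg, ← map_inv, ← map_mul, ← map_pow] at h2
  convert h2 using 1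
  rw [hm, hm, ← map_mul]
  congr 1
  funext k
  simp only [Pi.mul_apply, Pi.pow_apply, Pi.inv_apply, pow_one, swap_inv, ← w_sub hf.ord,
    w_pow hf.ord, ZMod.natCast_zmod_val]
  by_cases k0 : k = 0
  · simp [k0, hi.symm, w_neg hf.ord, hi]
  by_cases ki : k = i
  · simp [ki, hi]
  simp [k0, ki, swap_apply_of_ne_of_ne]

theorem five (ho : OddF F) {A : GL (Fin 2) F} {τ z θ : F} (h0 : A.val 0 0 = τ) (h1 : A.val 1 1 = -τ)
    (h2 : A.val 1 0 ≠ 0) (hd : A.val 0 0 * A.val 1 1 - A.val 0 1 * A.val 1 0 = -1) (u : Fˣ)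
    (hz : (u : F) = z) (e : (τ * (z - 1)) ^ 2 = θ * -z) (n0 : θ ≠ 0) (n1 : θ ≠ 1) (n2 : θ ≠ 2)
    (n3 : θ ^ 2 - 3 * θ + 1 ≠ 0) : ∀ m, 1 ≤ m → m ≤ 5 → (dg ![u, 1] * A) ^ m ∉ scalars (Fin 2) F := by
  have z0 : -z ≠ 0 := neg_ne_zero.2 (hz ▸ u.ne_zero)
  refine pow_not_scalar (T := τ * (z - 1)) (D := -z) (.inr (by simpa [dg_val] using h2))
    (by simp [dg_val, h0, h1, hz]; ring) (by simp [dg_val, hz]; linear_combination z * hd)
    (fun c => mul_ne_zero n0 z0 (by rw [← e, c]; simp))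
    (fun c => mul_ne_zero (sub_ne_zero.2 n1) z0 (by linear_combination c - e))
    (fun c => mul_ne_zero (sub_ne_zero.2 n2) z0 (by linear_combination c - e))
    fun c => mul_ne_zero n3 (pow_ne_zero 2 z0) ?_
  linear_combination c - ((τ * (z - 1)) ^ 2 + θ * -z + 3 * z) * e

theorem jobTR : JobTR.{u} := by
  intro dkb el F _ _ r _ ω G hf hb ho h
  have r0 := cast_ne_zero hf.ord
  have r2 : (r : F) - 2 ≠ 0 := by
    rcases hf.hr with rfl | rfl
    · exact fun e => ho.h3 (by push_cast at e; linear_combination e)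
    · exact fun e => ho.h5 (by push_cast at e; linear_combination e)
  obtain ⟨i, i0, hi⟩ : ∃ i : ZMod r, i ≠ 0 ∧ vv ω i * vv ω i + 2 * r ≠ 0 := by
    by_contra! c
    have h1 : ∑ i : ZMod r, (vv ω i * vv ω i + 2 * r) = 2 * r := by
      rw [Finset.sum_eq_single 0 (fun i _ => c i) (by simp)]; simp [vv]
    rw [Finset.sum_add_distrib, vv_sq hf] at h1
    simp only [Finset.sum_const, Finset.card_univ, ZMod.card, nsmul_eq_mul] at h1
    exact mul_ne_zero (mul_ne_zero ho.h2 r0) r2 (by linear_combination h1)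
  have v0 := vv_ne hf i0
  obtain ⟨τ, hτ⟩ : ∃ τ : F, τ = 1 + (r : F)⁻¹ * (vv ω i * vv ω i) := ⟨_, rfl⟩
  let A : GL (Fin 2) F := GeneralLinearGroup.mkOfDetNeZero
    !![τ, -(1 + τ) * vv ω i; (r : F)⁻¹ * vv ω i, -τ] (by
      rw [det_fin_two_of, show τ * -τ - -(1 + τ) * vv ω i * ((r : F)⁻¹ * vv ω i) = -1 by
        linear_combination (-1 - τ) * hτ]
      simp)
  let e : ZMod r → F := Pi.single i 1
  let v : ZMod r → F := vv ω - vv ω i • e
  let H := sec (G ⊓ centralizer {hm 0 ω}) (of fun a j => ![e a, v a] j)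
  have hA : A ∈ H := by
    refine ⟨_, ⟨G.mul_mem (G.mul_mem hb.ph h) (G.inv_mem hb.ph), mem_centralizer_singleton_iff.2
      (comm_dg fun a b n => ?_)⟩, (col2 _ _ _ _).2 ?_⟩
    · have : a ≠ b ∧ (a = 0 ∨ b = 0) := ⟨by rintro rfl; exact n rfl, by
        by_contra! c
        simp [c.1, c.2] at n⟩
      rw [refl_val hf, Matrix.add_apply, one_apply_ne this.1]
      rcases this.2 with c | c <;> simp [c, vv, vecMulVec_apply]
    · have s := vv_sq hf
      have d1 : vv ω ⬝ᵥ e = vv ω i := by simp [e]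
      have d2 : vv ω ⬝ᵥ vv ω = -2 * r := s
      simp only [v, refl_val hf, add_mulVec, one_mulVec, smul_mulVec, vecMulVec_mulVec, dotProduct_sub,
        dotProduct_smul, d1, d2]
      constructor <;> ext a <;> simp [A, hτ] <;> field_simp <;> ring
  have hD : ∀ j : ZMod r, dg ![w ω j, 1] ∈ H := fun j => by
    refine ⟨_, ⟨hm_pair hf hb h i0 j, mem_centralizer_singleton_iff.2 ?_⟩, (col2 _ _ _ _).2 ?_⟩
    · simp only [hm, ← map_mul, mul_comm]
    · rw [hm, hm, ← map_mul, dg_val]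
      constructor <;> ext a <;> by_cases c : a = i <;> by_cases c' : a = 0 <;>
        simp [c, c', e, v, dg_val, mulVec_diagonal, i0, i0.symm, vv]
  have o1 : ∀ m, 1 ≤ m → m < r → ω ^ m ≠ 1 := fun m a b =>
    pow_ne_one_of_lt_orderOf (by omega) (hf.ord.symm ▸ b)
  obtain ⟨z, hz⟩ : ∃ z : F, z = w ω i := ⟨_, rfl⟩
  have z0 : z ≠ 0 := hz ▸ Units.ne_zero _
  have vz : vv ω i = z - z⁻¹ := by rw [vv, w_neg hf.ord, hz, Units.val_inv_eq_inv_val]
  have zs : ∑ k ∈ Finset.range r, z ^ k = 0 := by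
    have z1 : z - 1 ≠ 0 := sub_ne_zero.2 fun c => i0 ((w_eq_one_iff hf.ord).1 (Units.ext (hz ▸ c)))
    refine mul_right_cancel₀ z1 ?_
    rw [geom_sum_mul, hz, ← Units.val_pow_eq_pow_val, w_pow hf.ord]
    simp
  obtain ⟨τ0, y, hy, ny⟩ : τ ≠ 0 ∧ ∃ y ∈ H, ∀ m, 1 ≤ m → m ≤ 5 → y ^ m ∉ scalars (Fin 2) F := by
    rw [vz] at hτ
    rcases hf.hr with rfl | rfl
    · simp only [Finset.sum_range_succ, Finset.range_zero, Finset.sum_empty] at zs
      have h5 := ho.h5
      have t1 : 5 * τ * z ^ 2 = 3 * z ^ 2 + z ^ 4 + 1 := by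
        rw [hτ]; push_cast; field_simp; ring
      have t2 : 5 * τ ^ 2 - 5 * τ + 1 = 0 := mul_left_cancel₀ (mul_ne_zero h5 (pow_ne_zero 4 z0)) (by
        linear_combination (5 * τ * z ^ 2 + z ^ 4 - 2 * z ^ 2 + 1) * t1 +
          (z ^ 4 - z ^ 3 + z ^ 2 - z + 1) * zs)
      have t0 : τ ≠ 0 := fun c => by simp [c] at t2
      have a : A.val 1 0 ≠ 0 := mul_ne_zero (inv_ne_zero r0) v0
      have b : A.val 0 0 * A.val 1 1 - A.val 0 1 * A.val 1 0 = -1 := by
        change τ * -τ - -(1 + τ) * vv ω i * (((5 : ℕ) : F)⁻¹ * vv ω i) = -1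
        rw [vz]
        linear_combination (-1 - τ) * hτ
      refine ⟨t0, ?_⟩
      by_cases c : τ = 2
      · have h11 : (11 : F) = 0 := by rw [c] at t2; linear_combination t2
        refine ⟨_, mul_mem (hD i) hA, five ho (θ := 7) (τ := τ) rfl rfl a b _ hz.symm ?_ ho.h7
          (fun k => mul_ne_zero ho.h2 ho.h3 (by linear_combination k))
          (fun k => h5 (by linear_combination k))
          fun k => ho.h7 (by linear_combination k - 2 * h11)⟩
        rw [c] at t1 ⊢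
        refine mul_left_cancel₀ z0 ?_
        linear_combination 4 * t1 + 4 * zs - 3 * z ^ 2 * h11
      · refine ⟨_, mul_mem (hD (2 * i)) hA, five ho (θ := τ) (τ := τ) (z := z ^ 2) rfl rfl a b _
          (by rw [hz, ← Units.val_pow_eq_pow_val, w_pow hf.ord]; rfl) ?_ t0
          (fun k => by rw [k] at t2; norm_num at t2) c fun k => ?_⟩
        · linear_combination -τ ^ 2 * t1 + τ * z ^ 2 * t2
        · have k1 : 5 * τ - 2 = 0 := mul_left_cancel₀ ho.h2 (by linear_combination t2 - 5 * k)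
          exact one_ne_zero (α := F) (by linear_combination (5 * τ - 3) * k1 - 5 * t2)
    · simp only [Finset.sum_range_succ, Finset.range_zero, Finset.sum_empty] at zs
      refine ⟨fun c => ?_, _, hD 1, fun m a b c => ?_⟩
      · have h7 := ho.h7
        have t1 : 7 * τ * z ^ 2 = 5 * z ^ 2 + z ^ 4 + 1 := by
          rw [hτ]; push_cast; field_simp; ring
        rw [c] at t1
        exact mul_ne_zero h7 ho.h13 (by
          linear_combination -(-4 + z + z ^ 2 - 4 * z ^ 3 + 20 * z ^ 5) * t1 +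
            (95 - 96 * z + 20 * z ^ 2 - 20 * z ^ 3) * zs)
      · rw [← map_pow, dg_mem_scalars] at c
        obtain ⟨c, hc⟩ := c
        exact o1 m a (by omega) (by simpa [w_one hf.ord] using (hc 0).trans (hc 1).symm)
  obtain ⟨c, c0, u, ⟨g, hg, e1⟩, e2⟩ := dkb F H ω 1 _ A y hf.nsq (hD 1) (by
      ext a b; fin_cases a <;> fin_cases b <;> simp [dg_val, w_one hf.ord])
    (fun k => o1 2 (by omega) (by rcases hf.hr with h | h <;> omega) (Units.ext (by simpa using k)))
    hA (mul_ne_zero (fun k => hi (by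
      rw [hτ] at k
      field_simp at k
      linear_combination -k)) v0) (mul_ne_zero (inv_ne_zero r0) v0) (.inl τ0) hy ny
  rw [col2, e2] at e1
  have h1 := hm_pair hf hb h i0 1
  rw [w_one hf.ord] at h1
  have h2 : hm (0 : ZMod r) ω⁻¹ = (hm 0 ω)⁻¹ := by rw [hm, hm, ← map_inv, Pi.mulSingle_inv]
  obtain ⟨φ, p1, p2, p3⟩ := row_of_fix hg.1 h1
    (h2 ▸ (show Commute g _ from mem_centralizer_singleton_iff.1 hg.2).symm.inv_left)
    (by simp only [hm, commute_iff_eq, ← map_mul, mul_comm])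
    (by simpa using o1 1 le_rfl hf.prime.one_lt) (e1.1.trans (by simp [e])) (v := v)
    (by rw [e1.2]; simpa [e] using c0)
  exact el F r ω G hf hb i φ p1 p2 p3

end H72.C6T
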