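/- The identification of the group of a hexagon with `G₂(q)` or `³D₄(q)`. -/
import Cfsg.Agent.H72.HexG2
import Cfsg.Agent.H64.Hx6

set_option autoImplicit false

namespace H72

open H12.LC

theorem jobHexG2 : JobHexG2 := fun _ _ _ F₁ _ _ _ _ _ x h => by
  obtain ⟨y, hy⟩ := exists_hexG2 (F := F₁) x.odd₁
  obtain ⟨e⟩ := H64.Hx.hex_unique x y rfl h
  exact ⟨e.trans (MulEquiv.subgroupCongr hy)⟩

theorem jobHexD4 : JobHexD4 := fun _ _ _ _ _ _ _ _ _ x h => by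
  obtain ⟨y, hy⟩ := exists_hexD4 h x.odd₁
  obtain ⟨e⟩ := H64.Hx.hex_unique x y rfl rfl
  exact ⟨e.trans (MulEquiv.subgroupCongr hy)⟩

end H72
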