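import Cfsg.Agent.H2.KpSpec
import Cfsg.Agent.Rz.H2_Kp_CL_eq_7
import Cfsg.Agent.Rz.H2_Kp_OP_eq_7

/-! KP tower (S4202): the slot `Alt`. -/

set_option autoImplicit false
set_option linter.unusedSectionVars false

namespace H72.KpA
open Equiv MulAction H2.Ln H2.Kp

theorem mono_tr {β : Type} {A B : Subgroup (Perm β)} (h : A ≤ B) {n : ℕ}
    (t : IsMultiplyPretransitive A β n) : IsMultiplyPretransitive B β n :=
  ⟨fun x y => by
    obtain ⟨g, hg⟩ := exists_smul_eq A x y
    exact ⟨⟨g.1, h g.2⟩, hg⟩⟩

theorem top_tr {β : Type} {B : Subgroup (Perm β)} (h : B = ⊤) (n : ℕ) :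
    IsMultiplyPretransitive B β n :=
  ⟨fun x y => by
    have := Equiv.Perm.isMultiplyPretransitive β n
    obtain ⟨g, hg⟩ := exists_smul_eq (Perm β) x y
    exact ⟨⟨g, h ▸ Subgroup.mem_top g⟩, hg⟩⟩

theorem supp_le {β : Type} [Fintype β] [DecidableEq β] {x : Perm β} {T : Finset β}
    (h : ∀ b ∈ T, x b = b) : x.support.card ≤ Fintype.card β - T.card := by
  rw [← Finset.card_compl]
  exact Finset.card_le_card fun b hb => Finset.mem_compl.2 fun c => Perm.mem_support.1 hb (h b c)

theorem alt3 : ∀ y : Perm (Fin 3), Perm.sign y = 1 → (y 0 = 0 ∧ y 1 = 1 ∧ y 2 = 2) ∨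
    (y 0 = 1 ∧ y 1 = 2 ∧ y 2 = 0) ∨ (y 0 = 2 ∧ y 2 = 1 ∧ y 1 = 0) := by decide

/-- An enumeration of a three-element type. -/
def aa {β : Type} (e : Fin 3 ≃ β) (i : ℕ) : β := e ⟨i % 3, Nat.mod_lt _ (by norm_num)⟩

theorem aa_inj {β : Type} (e : Fin 3 ≃ β) : Set.InjOn (aa e) (Set.Iio 3) := fun i hi j hj h => by
  have := Fin.ext_iff.1 (e.injective h)
  simp only [Set.mem_Iio] at hi hj this
  omega

theorem aa_img {β : Type} [Fintype β] [DecidableEq β] (e : Fin 3 ≃ β) :
    (Finset.range 3).image (aa e) = Finset.univ := by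
  refine Finset.eq_univ_of_forall fun b => Finset.mem_image.2 ⟨(e.symm b).1, by simp, ?_⟩
  simp [aa, Nat.mod_eq_of_lt (e.symm b).2]

theorem jobAlt : KB → LamK → H2.Kp.Peel → PC → TOP → Alt := by
  intro hK hL hP hC hT Γ α β _ _ _ _ _ w S p hp ih hn hc hA
  have w1 : 1 ≤ w := by rcases S.w12 with e | e <;> omega
  have pp : p.Prime := by rcases hp with e | e | e <;> subst e <;> norm_num
  have nt : Nontrivial β := Fintype.one_lt_card_iff_nontrivial.1 (by omega)
  have c6 : Fintype.card β ≤ 6 := by
    by_contra h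
    have h1 : p ∣ 2 * Nat.card (alternatingGroup β) := by
      rw [two_mul_nat_card_alternatingGroup, Nat.card_perm, Nat.card_eq_fintype_card]
      exact (pp.dvd_factorial).2 (by omega)
    have h2 : p ∣ Nat.card (alternatingGroup β) :=
      ((pp.dvd_mul).1 h1).resolve_left fun h => by have := Nat.le_of_dvd two_pos h; omega
    exact hn ((h2.trans (Subgroup.card_dvd_of_le hA)).trans ((Subgroup.card_map_dvd _ _).trans
      (Subgroup.card_subgroup_dvd_card _)))
  have L := hL Γ _ p 1 w gg ih hn w1 fun a _ => by rw [pow_one]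
  have key : ∀ T : Finset β, (∀ x ∈ S.fb ⊤ T, S.φ x = 1) →
      kc (S.fb ⊤ T) ≤ w ^ (Fintype.card β - T.card) := fun T h => by
    have h1 := (hP Γ α β w S _ _ _ _ L (S.fb ⊤ T)).2.2 h
    simp only [pow_one] at h1
    refine h1.trans (Nat.pow_le_pow_right w1 ?_)
    rw [← Finset.card_compl]
    exact Finset.card_le_card fun b hb => Finset.mem_compl.2 (Finset.mem_sdiff.1 (S.bs_fb ⊤ T hb)).2
  have k1 : ∀ T : Finset β, Fintype.card β - T.card ≤ 1 →
      kc (S.fb ⊤ T) ≤ w ^ (Fintype.card β - T.card) := fun T h => key T fun x hx =>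
    Perm.card_support_le_one.1 ((supp_le fun b hb => Sys.fb_fix hx hb).trans h)
  by_cases hs : S.im ⊤ ≤ alternatingGroup β
  · have ev : ∀ x, Perm.sign (S.φ x) = 1 := fun x => hs ⟨x, trivial, rfl⟩
    by_cases h3 : w = 2 ∧ Fintype.card β = 3
    · obtain ⟨rfl, h3⟩ := h3
      let e : Fin 3 ≃ β := (Fintype.equivFinOfCardEq h3).symm
      have k0 : kc (S.fb ⊤ Finset.univ) ≤ 1 := by simpa using k1 Finset.univ (by simp)
      have pc : ∀ (f : Fin 3 ≃ β) (σ : ℕ → ℕ) (R : Finset ℕ), (∀ i < 3, σ i < 3) →
          (∀ i < 3, i ∉ R → 0 < i ∧ σ (i - 1) = i) →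
          ncl {x | ∀ i < 3, S.φ x (aa f i) = aa f (σ i)} ≤ 2 ^ R.card := fun f σ R h1 h2 => by
        have := hC Γ α β 2 S 3 (aa f) σ R (aa_inj f) h1 h2
        rw [aa_img] at this
        exact this.trans ((Nat.mul_le_mul_left _ k0).trans (mul_one _).le)
      have h0 := pc e id {0, 1, 2} (by decide) (by decide)
      have h1 := pc e (fun i => (i + 1) % 3) {0} (by decide) (by decide)
      have h2 := pc ((swap 1 2).trans e) (fun i => (i + 1) % 3) {0} (by decide) (by decide)
      have h4 := hK.cov Γ (Fin 3) Finset.univ ![{x | ∀ i < 3, S.φ x (aa e i) = aa e (id i)},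
        {x | ∀ i < 3, S.φ x (aa e i) = aa e ((fun i => (i + 1) % 3) i)},
        {x | ∀ i < 3, S.φ x (aa ((swap 1 2).trans e) i) =
          aa ((swap 1 2).trans e) ((fun i => (i + 1) % 3) i)}] fun x => by
          have h5 := alt3 (e.symm.permCongr (S.φ x)) (by rw [Perm.sign_permCongr, ev])
          simp only [permCongr_apply, symm_symm, symm_apply_eq] at h5
          rcases h5 with h5 | h5 | h5
          · refine ⟨0, Finset.mem_univ _, x, fun i hi => ?_, IsConj.refl x⟩
            interval_cases i
            exacts [h5.1, h5.2.1, h5.2.2]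
          · refine ⟨1, Finset.mem_univ _, x, fun i hi => ?_, IsConj.refl x⟩
            interval_cases i
            exacts [h5.1, h5.2.1, h5.2.2]
          · refine ⟨2, Finset.mem_univ _, x, fun i hi => ?_, IsConj.refl x⟩
            interval_cases i
            exacts [h5.1, h5.2.1, h5.2.2]
      rw [Fin.sum_univ_three] at h4
      refine Or.inr (Or.inl ⟨by rw [h3], h4.trans ?_⟩)
      exact (Nat.add_le_add (Nat.add_le_add h0 h1) h2).trans (by decide)
    · obtain ⟨T, -, hT2⟩ := Finset.exists_subset_card_eq (s := (Finset.univ : Finset β))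
        (n := Fintype.card β - 2) (by simp)
      have h1 : kc (S.fb ⊤ T) ≤ w ^ 2 := by
        refine (key T fun x hx => ?_).trans (by rw [hT2, show Fintype.card β - (Fintype.card β - 2) = 2 by omega])
        have h2 := supp_le fun b hb => Sys.fb_fix hx hb
        by_contra h4
        have h5 : (S.φ x).support.card = 2 := by
          have := mt Perm.card_support_le_one.1 h4
          omega
        have h6 := (Perm.card_support_eq_two.1 h5).sign_eq
        rw [ev] at h6
        exact absurd h6 (by decide)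
      have h2 : ∀ d ∉ T, kc (S.fb ⊤ (insert d T)) ≤ w := fun d hd => by
        have h4 : Fintype.card β - (insert d T).card = 1 := by
          rw [Finset.card_insert_of_notMem hd]; omega
        simpa [h4] using k1 _ h4.le
      have h4 := (hT Γ α β w S T _ _ (by omega) (by omega) (mono_tr hA (by
        rw [hT2, ← Nat.card_eq_fintype_card]
        exact alternatingGroup.isMultiplyPretransitive β)) h1 h2).1
      rw [hT2] at h4
      generalize kk Γ = k at h4
      generalize Fintype.card β = c at *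
      unfold QB
      rcases S.w12 with rfl | rfl <;> interval_cases c <;> simp [cA, cB, CL, OP, gg] at h3 h4 ⊢ <;>
        first | omega | nlinarith | exact Or.inl (Nat.le_sqrt.2 (by nlinarith))
  · have ht : S.im ⊤ = ⊤ := by
      obtain ⟨y, y1, y2⟩ := SetLike.not_le_iff_exists.1 hs
      refine eq_top_iff.2 fun g _ => ?_
      by_cases hg : g ∈ alternatingGroup β
      · exact hA hg
      · exact (mul_mem_cancel_right y1).1 (hA ((Subgroup.mul_mem_iff_of_index_two
          alternatingGroup.index_eq_two).2 (iff_of_false hg y2)))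
    obtain ⟨T, -, hT2⟩ := Finset.exists_subset_card_eq (s := (Finset.univ : Finset β))
      (n := Fintype.card β - 1) (by simp)
    have h1 : kc (S.fb ⊤ T) ≤ w := by
      have h4 : Fintype.card β - T.card = 1 := by omega
      simpa [h4] using k1 _ h4.le
    have h2 : ∀ d ∉ T, kc (S.fb ⊤ (insert d T)) ≤ 1 := fun d hd => by
      have h4 : Fintype.card β - (insert d T).card = 0 := by
        rw [Finset.card_insert_of_notMem hd]; omega
      simpa [h4] using k1 _ (h4.le.trans zero_le_one)
    have h4 := (hT Γ α β w S T _ _ (by omega) (by omega) (top_tr ht _) h1 h2).1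
    rw [hT2] at h4
    generalize kk Γ = k at h4
    generalize Fintype.card β = c at *
    unfold QB
    rcases S.w12 with rfl | rfl <;> interval_cases c <;> simp [cA, cB, CL, OP, gg] at h4 ⊢ <;>
      first | omega | nlinarith | exact Or.inl (Nat.le_sqrt.2 (by nlinarith))

end H72.KpA
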