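/- Job L34 of `blueprints/LD4.md`. -/
import Cfsg.Agent.H20.LD4Kit

set_option autoImplicit false

namespace H72.LD4

open Cfsg H20.LD Matrix
open scoped commutatorElement MatrixGroups

universe u v

variable {k : Type u} [Field k] {X : Type u} [Group X] {Γ : Type v} [Group Γ] {p : ℕ}
  {ρ : X →* G4 k} {π : X →* Γ}

theorem conj_congr (h : R4 p ρ π) {a b : X} (e : π a = π b) (g : X) : a * g * a⁻¹ = b * g * b⁻¹ := by
  obtain ⟨z, hz, rfl⟩ := R4.exists_ker e
  calc _ = z * (a * g * a⁻¹) * z⁻¹ := by rw [(h.comm_of_ker hz _).eq]; group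
    _ = _ := by group

theorem cube_congr (h : R4 p ρ π) {g g' : X} (e : π g = π g') (H : tr ρ (g ^ 3) = tr ρ g⁻¹) :
    tr ρ (g' ^ 3) = tr ρ g'⁻¹ := by
  obtain ⟨z, hz, rfl⟩ := R4.exists_ker e
  obtain ⟨c, hc⟩ := (h.ker (z ^ 3)).1 (by rw [map_pow, hz, one_pow])
  have : (z * g)⁻¹ = z ^ 3 * g⁻¹ := by
    rw [(h.comm_of_ker hz g).eq, _root_.mul_inv_rev, inv_eq_of_mul_eq_one_right (b := z ^ 3)
      (by rw [← pow_succ', h.pow_four hz])]
  rw [this, (h.comm_of_ker hz g).mul_pow, tr_of_scalar hc, tr_of_scalar hc, H]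

/-- a fixed point free action on `2⁴` -/
theorem tr_mul_tr [Finite X] (h : R4 p ρ π) (h3 : (3 : k) = 0) (hr : NoRf ρ π) {g : X} {E : Subgroup Γ}
    (hc : Nat.card E = 16) (h2 : ∀ e ∈ E, e * e = 1) (hn : ∀ e ∈ E, π g * e * (π g)⁻¹ ∈ E)
    (hf : ∀ e ∈ E, π g * e = e * π g → e = 1) : tr ρ g * tr ρ g⁻¹ = 1 := by
  classical
  have : Finite Γ := .of_surjective π h.surj
  have := Fintype.ofFinite E
  rw [Nat.card_eq_fintype_card] at hc
  choose σ hσ using fun e : E => h.surj e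
  have h4 : (4 : k) = 1 := by linear_combination h3
  have z : ∀ x, π x ∈ E → π x ≠ 1 → tr ρ x = 0 := fun x hx h1 => hr x h1 (h2 _ hx)
  have li : LinearIndependent k fun e => (ρ (σ e)).val :=
    LinearIndependent.of_pairwise_dual_eq_zero_one _
      (fun e => traceLinearMap (Fin 4) k k ∘ₗ LinearMap.mulRight k (ρ (σ e)⁻¹).val)
      (fun e f hef => by
        change ((ρ (σ f)).val * _).trace = 0
        rw [← val_mul']
        refine z _ (by rw [map_mul, map_inv, hσ, hσ]; exact E.mul_mem f.2 (E.inv_mem e.2)) fun c => hef ?_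
        rw [map_mul, map_inv, hσ, hσ, mul_inv_eq_one] at c
        exact Subtype.ext c.symm)
      fun e => by
        change ((ρ (σ e)).val * _).trace = 1
        rw [← val_mul', mul_inv_cancel]
        exact tr_one.trans h4
  have sp := li.span_eq_top_of_card_eq_finrank' (by rw [hc]; simp [Module.finrank_matrix])
  obtain ⟨c, hc'⟩ := h.scalar_of_comm (M := ∑ e, (ρ (σ e * g * (σ e)⁻¹)).val) fun x => by
    have hx : (ρ x).val ∈ Submodule.span k (Set.range fun e => (ρ (σ e)).val) := sp ▸ Submodule.mem_top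
    generalize (ρ x).val = N at hx
    induction hx using Submodule.span_induction with
    | mem N hN =>
      obtain ⟨f, rfl⟩ := hN
      rw [Finset.sum_mul, Finset.mul_sum, ← Equiv.sum_comp (Equiv.mulLeft f)]
      refine Finset.sum_congr rfl fun e _ => ?_
      rw [← val_mul', ← val_mul', conj_congr h (b := σ f * σ e) (by simp [hσ])]
      congr 2; group
    | zero => simp
    | add a b _ _ ha hb => rw [mul_add, add_mul, ha, hb]
    | smul a b _ hb => rw [Matrix.mul_smul, Matrix.smul_mul, hb]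
  have t1 := congrArg trace hc'
  have t2 := congrArg (fun M => (M * (ρ g⁻¹).val).trace) hc'
  have tc : ∀ a, (ρ (a * g * a⁻¹)).val.trace = tr ρ g := fun a => tr_conj a g
  simp only [trace_sum, tc] at t1
  rw [Finset.sum_const, Finset.card_univ, hc, trace_smul, trace_one] at t1
  simp only [Finset.sum_mul, trace_sum, ← val_mul', Matrix.smul_mul, one_mul, trace_smul] at t2
  change ∑ i, tr ρ (σ i * g * (σ i)⁻¹ * g⁻¹) = c * tr ρ g⁻¹ at t2
  rw [Finset.sum_eq_single 1 (fun e _ he => z _ ?_ fun c => he ?_) (by simp),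
    conj_congr h (b := 1) (by simp [hσ]), one_mul, inv_one, mul_one, mul_inv_cancel, tr_one] at t2
  · simp only [nsmul_eq_mul, smul_eq_mul, Fintype.card_fin, Nat.cast_ofNat] at t1
    linear_combination tr ρ g⁻¹ * t1 - t2 + (-5 * tr ρ g * tr ρ g⁻¹ + c * tr ρ g⁻¹ + 1) * h3
  · simp only [map_mul, map_inv, hσ, mul_assoc]
    exact E.mul_mem e.2 (by simpa only [mul_assoc] using hn _ (E.inv_mem e.2))
  · simp only [map_mul, map_inv, hσ] at c
    refine Subtype.ext (hf _ e.2 ?_)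
    rw [mul_inv_eq_one, mul_inv_eq_iff_eq_mul] at c
    exact c.symm

theorem l34_five [Finite X] (h : R4 p ρ π) (h3 : (3 : k) = 0) (hr : NoRf ρ π) (L : L34F Γ) {g : X}
    (g5 : g ^ 5 = 1) (g1 : π g ≠ 1) : tr ρ g⁻¹ = tr ρ g ∧ tr ρ g ^ 2 = 1 := by
  obtain ⟨c, E, h1, h2, hn, hf⟩ := L.five (π g) (by rw [← map_pow, g5, map_one]) g1
  have := tr_isConj (ρ := ρ) (h.isConj_of_odd (g' := g⁻¹) (by decide) g5 (by rw [inv_pow, g5, inv_one])
    (by rwa [map_inv]))
  have t := tr_mul_tr h h3 hr h1 h2 hn hf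
  exact ⟨this.symm, by rw [← t, ← this, sq]⟩

theorem l34_four [IsAlgClosed k] (h : R4 p ρ π) (hp : p ≠ 2) (hr : NoRf ρ π) (L : L34F Γ) {g : X}
    (g4 : π g ^ 4 = 1) (g2 : π g * π g ≠ 1) : tr ρ (g ^ 3) = tr ρ g⁻¹ := by
  have h2 := h.two_ne hp
  have a1 : π (g ^ 2) ≠ 1 := by rwa [map_pow, sq]
  have a2 : π (g ^ 2) * π (g ^ 2) = 1 := by rw [map_pow, ← pow_add, g4]
  have t2 := hr _ a1 a2
  have g8 := (h.tr_eq_zero_iff hp a1 a2).1 t2
  rcases h.pm_of_sq (z := g ^ 4) (by rw [map_pow, g4]) (by rw [← pow_add, ← g8, ← pow_mul]) with e | e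
  · rw [inv_eq_of_mul_eq_one_right (b := g ^ 3) (by rw [← pow_succ', e])]
  obtain ⟨s, h1, hc, -⟩ := h.CH4 g
  have e3 : tr ρ (g ^ 3) = -tr ρ g⁻¹ := by
    rw [show g ^ 3 = g ^ 4 * g⁻¹ by group, tr_of_scalar (c := -1) (by rw [e]; simp), neg_one_mul]
  rw [val_pow'] at e
  rw [t2, sub_zero] at h1
  have hc' : s • (ρ g).val = tr ρ g • (ρ (g ^ 2)).val + tr ρ g⁻¹ • (1 : M4 k) := by
    have := congrArg (· * (ρ g)⁻¹.val) hc
    simp only [e, add_mul, sub_mul, Matrix.smul_mul, pow_succ _ 2, pow_succ _ 1, pow_one, mul_assoc,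
      val_mul_inv, mul_one, zero_mul, neg_mul, one_mul] at this
    rw [val_pow', sq]
    linear_combination (norm := module) this
  by_cases s0 : s = 0
  · have t0 : tr ρ g = 0 := pow_eq_zero_iff two_ne_zero |>.1 (by rw [← h1, s0, mul_zero])
    rw [s0, t0, zero_smul, zero_smul, zero_add, eq_comm, smul_eq_zero] at hc'
    rw [e3, hc'.resolve_right one_ne_zero, neg_zero]
  exfalso
  obtain ⟨y, y', c1, c2, n1, n2, n3⟩ := L.four (π g) g4 g2
  obtain ⟨y, rfl⟩ := h.surj y
  obtain ⟨y', rfl⟩ := h.surj y'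
  have key : ∀ w, ¬ Commute (π w) (π g) → ⁅g ^ 2, w⁆ ≠ 1 := fun w hw c => hw (Commute.map (h.ext ?_) π)
  · rw [← sq, ← map_pow] at c1 c2
    refine key (y * y') (by rwa [map_mul]) ?_
    rw [h.comm_mul_right c2.symm, h.eq_of_sq (R4.comm_ker c1.symm) (h.comm_sq c1.symm a2) (key y n1)
      (R4.comm_ker c2.symm) (h.comm_sq c2.symm a2) (key y' n2), h.comm_sq c2.symm a2]
  · have c' := congrArg (fun x => (ρ x).val) (commutatorElement_eq_one_iff_mul_comm.1 c)
    simp only [val_mul'] at c'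
    refine smul_right_injective _ s0 ?_
    simp only [val_mul']
    rw [← Matrix.mul_smul, ← Matrix.smul_mul, hc', mul_add, add_mul, Matrix.mul_smul, Matrix.smul_mul, c']
    simp

theorem jobL34 : JobL34.{u, v} := by
  rintro p k _ _ X _ _ Γ _ ρ π h L rfl
  have hr := h.noRf_of_one L.one L.v4
  have h3 : (3 : k) = 0 := by have := h.char; exact_mod_cast CharP.cast_eq_zero k 3
  refine h.tu_of fun g hg => ?_
  rw [← h.tr_pow_char]
  by_cases g1 : π g = 1
  · exact cube_congr h (g := 1) (by rw [g1, map_one]) (by rw [one_pow, inv_one])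
  rcases L.spec (π g) with e | e | e | e
  · refine absurd ?_ g1
    have := pow_gcd_eq_one.2 ⟨e, (by rw [← map_pow, pow_orderOf_eq_one, map_one] : π g ^ orderOf g = 1)⟩
    rwa [(Nat.prime_three.coprime_iff_not_dvd.2 hg).gcd_eq_one, pow_one] at this
  · by_cases g2 : π g * π g = 1
    · have i : (π g)⁻¹ = π g := inv_eq_of_mul_eq_one_right g2
      have c : π (g ^ 3) = π g := by rw [map_pow, pow_three, g2, mul_one]
      rw [hr _ (by rwa [c]) (by rwa [c]), hr _ (by rwa [map_inv, i]) (by rwa [map_inv, i])]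
    · exact l34_four h (by norm_num) hr L e g2
  · obtain ⟨x, hx, x5⟩ := h.lift (by decide) e
    refine cube_congr h hx ?_
    rw [← hx] at g1 e
    obtain ⟨a1, a2⟩ := l34_five h h3 hr L x5 g1
    obtain ⟨b1, b2⟩ := l34_five h h3 hr L (g := x ^ 2) (by rw [← pow_mul, mul_comm, pow_mul, x5, one_pow])
      fun c => g1 (by simpa using pow_gcd_eq_one.2 ⟨e, (map_pow π x 2).symm.trans c⟩)
    rw [inv_eq_of_mul_eq_one_right (b := x ^ 3) (by rw [← pow_add, x5])] at b1
    obtain ⟨s, h1, -, h2⟩ := h.CH4 x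
    rw [a1] at h2 ⊢
    rw [b1] at h2 ⊢
    rcases sq_eq_sq_iff_eq_or_eq_neg.1 (b2.trans a2.symm) with c | c
    · exact c
    · rw [c] at h1 h2
      have : tr ρ x = 0 := by
        linear_combination -2 * h2 + tr ρ x * h1 + tr ρ x * a2 + (tr ρ x ^ 2 - 2 * tr ρ x) * h3
      rw [this] at a2; simp at a2
  · obtain ⟨x, hx, x7⟩ := h.lift (by decide) e
    refine cube_congr h hx (tr_isConj (h.isConj_of_odd (N := 7) (by decide)
      (by rw [← pow_mul, mul_comm, pow_mul, x7, one_pow]) (by rw [inv_pow, x7, inv_one]) ?_))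
    rw [inv_eq_of_mul_eq_one_right (b := (x ^ 3) ^ 2) (by rw [← pow_mul, ← pow_succ', x7]), map_pow π _ 2]
    exact L.seven _ (by rw [← map_pow, ← pow_mul, mul_comm, pow_mul, x7, one_pow, map_one])

end H72.LD4
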