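/- Job A7 of `blueprints/LD4.md`. -/
import Cfsg.Agent.H72.LD4L
import Cfsg.Agent.H19.L3Fin

set_option autoImplicit false
set_option maxRecDepth 100000

namespace H72.LD4

open Cfsg H20.LD Matrix Equiv Equiv.Perm
open scoped commutatorElement MatrixGroups

universe u v

attribute [local instance 2000] List.decidableBAll List.decidableBEx

section groups

variable {G G' : Type*} [Group G] [Group G']

/-- the classes of `A₇` -/
def QA (x : G) : Prop :=
  (∃ N, (N = 3 ∨ N = 5 ∨ N = 7) ∧ x ^ N = 1 ∧ IsConj x (x ^ 2)) ∨ x * x = 1 ∨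
  (SR x ∧ x ^ 4 = 1 ∧ x * x ≠ 1 ∧ ∃ y, y ^ 3 = 1 ∧ Commute y (x * x) ∧ ¬ Commute y x) ∨
  (SR x ∧ x ^ 6 = 1 ∧ x * x ≠ 1 ∧ x ^ 3 ≠ 1 ∧ ∃ y, y ≠ 1 ∧ y * y = 1 ∧ Commute y x ∧ x ^ 3 * y ≠ 1)

theorem sr_map (e : G ≃* G') {x : G} (h : SR x) : SR (e x) := by
  obtain ⟨s, t, h1, h2, h3, h4, rfl⟩ := h
  exact ⟨e s, e t, by simpa, by rw [← map_mul, h2, map_one], by simpa, by rw [← map_mul, h4, map_one],
    map_mul _ _ _⟩

theorem QA.map (e : G ≃* G') {x : G} (h : QA x) : QA (e x) := by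
  have n : ∀ {a : G}, a ≠ 1 → e a ≠ 1 := fun h => by simpa
  rcases h with ⟨N, h1, h2, h3⟩ | h | ⟨h1, h2, h3, y, h4, h5, h6⟩ | ⟨h1, h2, h3, h4, y, h5, h6, h7, h8⟩
  · exact .inl ⟨N, h1, by rw [← map_pow, h2, map_one], by simpa using e.toMonoidHom.map_isConj h3⟩
  · exact .inr (.inl (by rw [← map_mul, h, map_one]))
  · exact .inr (.inr (.inl ⟨sr_map e h1, by rw [← map_pow, h2, map_one], by simpa using n h3, e y,
      by rw [← map_pow, h4, map_one], by simpa using h5.map e,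
      fun c => h6 (e.injective (by simpa using c.eq))⟩))
  · exact .inr (.inr (.inr ⟨sr_map e h1, by rw [← map_pow, h2, map_one], by simpa using n h3,
      by simpa using n h4, e y, n h5, by rw [← map_mul, h6, map_one], h7.map e, by simpa using n h8⟩))

theorem one_map (e : G ≃* G') (h : H20.LD.One G) : H20.LD.One G' := fun s t h1 h2 h3 h4 => by
  simpa using e.toMonoidHom.map_isConj (h (e.symm s) (e.symm t) (by simpa)
    (by rw [← map_mul, h2, map_one]) (by simpa) (by rw [← map_mul, h4, map_one]))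

theorem dih_map (e : G ≃* G') [Finite G] (h : Dih G) : Dih G' := by
  obtain ⟨S, r, s, h1, h2, h3⟩ := h
  refine ⟨S.mapSurjective (f := e.toMonoidHom) e.surjective, e r, e s, by rw [← map_mul, h1, map_one],
    by simpa using congrArg e h2, ?_⟩
  rintro _ ⟨x, hx, rfl⟩
  refine (h3 x hx).imp ?_ ?_ <;> rintro ⟨j, hj⟩ <;> exact ⟨j, by simpa using congrArg e hj⟩

theorem pow_pm {p n : ℕ} (hn : p % n = 1 ∨ p % n + 1 = n) {x : G} (h : x ^ n = 1) :
    x ^ p = x ∨ x ^ p = x⁻¹ := by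
  rw [pow_eq_pow_mod p h]
  refine hn.imp (fun e => by rw [e, pow_one]) fun e => eq_inv_of_mul_eq_one_left ?_
  rw [← pow_succ, e, h]

end groups

abbrev A7 := alternatingGroup (Fin 7)

/-- an even permutation -/
def al (σ : Perm (Fin 7)) (h : sign σ = 1 := by decide +kernel) : A7 := ⟨σ, h⟩

theorem reps7_all : ∀ l ∈ H91.comps (7 / 2) 7, (l.sum + l.length) % 2 = 0 →
    ∃ r ∈ H19.reps7, r.1.cycleType = (l : Multiset ℕ) := by decide +kernel

theorem qa_rep : ∀ r ∈ H19.reps7, ∃ h, QA (G := A7) ⟨r.1, h⟩ := by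
  simp only [H19.reps7, List.forall_mem_cons, List.not_mem_nil, false_imp_iff, implies_true, and_true]
  refine ⟨⟨(al _).2, .inr (.inl (by decide +kernel))⟩, ⟨(al _).2, .inr (.inl (by decide +kernel))⟩,
    ⟨(al _).2, .inl ⟨3, by simp, by decide +kernel,
      H19.isConj_alt (t := c[1, 2] * c[5, 6]) (by decide +kernel) (by decide +kernel)⟩⟩,
    ⟨(al _).2, .inl ⟨3, by simp, by decide +kernel,
      H19.isConj_alt (t := c[1, 2] * c[4, 5]) (by decide +kernel) (by decide +kernel)⟩⟩,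
    ⟨(al _).2, .inr (.inr (.inl ⟨⟨al (c[0, 1] * c[2, 3]), al (c[1, 3] * c[4, 5]), by decide +kernel⟩,
      by decide +kernel, by decide +kernel, al c[4, 5, 6], by decide +kernel,
      by rw [commute_iff_eq]; decide +kernel, by rw [commute_iff_eq]; decide +kernel⟩))⟩,
    ⟨(al _).2, .inl ⟨5, by simp, by decide +kernel,
      H19.isConj_alt (t := c[0, 1, 3, 2] * c[5, 6]) (by decide +kernel) (by decide +kernel)⟩⟩,
    ⟨(al _).2, .inr (.inr (.inr ⟨⟨al (c[0, 1] * c[3, 4]), al (c[1, 2] * c[5, 6]), by decide +kernel⟩,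
      by decide +kernel, by decide +kernel, by decide +kernel, al (c[3, 5] * c[4, 6]), by decide +kernel,
      by decide +kernel, by rw [commute_iff_eq]; decide +kernel, by decide +kernel⟩))⟩,
    ⟨(al _).2, .inl ⟨7, by simp, by decide +kernel,
      H19.isConj_alt (t := c[1, 2, 4] * c[3, 6, 5]) (by decide +kernel) (by decide +kernel)⟩⟩⟩

theorem qa7 (x : A7) : QA x := by
  obtain ⟨r, hr, s, hs⟩ := H19.exists_rep H19.reps7 Prod.fst reps7_all x
  obtain ⟨h, q⟩ := qa_rep r hr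
  convert q.map (MulAut.conjNormal s)
  exact Subtype.ext hs

theorem one7 : H20.LD.One A7 := by
  have key : ∀ s : A7, s ≠ 1 → s * s = 1 → IsConj (al (c[0, 1] * c[2, 3])) s := fun x h1 h2 => by
    obtain ⟨r, hr, s, hs⟩ := H19.exists_rep H19.reps7 Prod.fst reps7_all x
    have : ∀ r ∈ H19.reps7, r.1 * r.1 = 1 → r.1 ≠ 1 → r.1 = c[0, 1] * c[2, 3] := by decide +kernel
    rw [this r hr (by simpa [hs] using congrArg Subtype.val h2)
      (fun e => h1 (Subtype.ext (by simp [hs, e])))] at hs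
    exact alternatingGroup.isConj_of (isConj_iff.2 ⟨s, hs.symm⟩) (by decide +kernel)
  exact fun s t h1 h2 h3 h4 => (key s h1 h2).symm.trans (key t h3 h4)

def d8L : List A7 := [1, al (c[0, 1, 2, 3] * c[4, 5]), al (c[0, 2] * c[1, 3]), al (c[0, 3, 2, 1] * c[4, 5]),
  al (c[1, 3] * c[4, 5]), al (c[0, 1] * c[2, 3]), al (c[0, 2] * c[4, 5]), al (c[0, 3] * c[1, 2])]

theorem dih7 : Dih A7 := by
  let D : Subgroup A7 :=
    { carrier := {x | x ∈ d8L}
      one_mem' := List.mem_cons_self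
      mul_mem' := fun {a b} ha hb => (by decide +kernel : ∀ a ∈ d8L, ∀ b ∈ d8L, a * b ∈ d8L) a ha b hb
      inv_mem' := fun {a} ha => (by decide +kernel : ∀ a ∈ d8L, a⁻¹ ∈ d8L) a ha }
  have hc : Nat.card D = 8 := by
    rw [show Nat.card D = Nat.card (d8L.toFinset : Set A7) from
      congrArg (fun s : Set A7 => Nat.card s) (List.coe_toFinset d8L).symm, Nat.card_coe_set_eq,
      Set.ncard_coe_finset, List.toFinset_card_of_nodup (by decide +kernel)]
    rfl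
  have h7 : Nat.card A7 = 2520 := by
    have := two_mul_nat_card_alternatingGroup (α := Fin 7)
    rw [Nat.card_perm, Nat.card_eq_fintype_card (α := Fin 7), Fintype.card_fin] at this
    exact Nat.eq_of_mul_eq_mul_left two_pos (this.trans (by decide))
  refine ⟨Sylow.ofCard D (by rw [hc, h7]; decide +kernel), al (c[0, 1, 2, 3] * c[4, 5]),
    al (c[1, 3] * c[4, 5]), by decide +kernel, by decide +kernel, fun x hx => ?_⟩
  obtain ⟨j, -, h⟩ := (by decide +kernel : ∀ x ∈ d8L, ∃ j ∈ [0, 1, 2, 3],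
    al (c[0, 1, 2, 3] * c[4, 5]) ^ j = x ∨ al (c[0, 1, 2, 3] * c[4, 5]) ^ j = x * al (c[1, 3] * c[4, 5])) x hx
  exact h.imp (fun e => ⟨j, (zpow_natCast _ _).trans e⟩) fun e => ⟨j, (zpow_natCast _ _).trans e⟩

variable {k : Type u} [Field k] {X : Type u} [Group X] {Γ : Type v} [Group Γ] {p : ℕ}
  {ρ : X →* G4 k} {π : X →* Γ}

theorem sq_eq (h : R4 p ρ π) (h1 : H20.LD.One Γ) (hZ : Z2 π) {s t : X} (s1 : π s ≠ 1) (s2 : π s * π s = 1)
    (t1 : π t ≠ 1) (t2 : π t * π t = 1) : s * s = t * t := by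
  obtain ⟨c, hc⟩ := isConj_iff.1 (h1 _ _ s1 s2 t1 t2)
  obtain ⟨c, rfl⟩ := h.surj c
  obtain ⟨z, hz, rfl⟩ := R4.exists_ker (π := π) (g := c * s * c⁻¹) (g' := t) (by simpa using hc)
  rw [← sq (z * _), (h.comm_of_ker hz _).mul_pow, sq, hZ z hz, one_mul, conj_pow, sq,
    ← (h.comm_of_ker (by rw [map_mul, s2]) c).eq, mul_inv_cancel_right]

theorem re_of_sr (h : R4 p ρ π) (h1 : H20.LD.One Γ) (hZ : Z2 π) {g : X} (hg : SR (π g)) :
    tr ρ g⁻¹ = tr ρ g := by
  obtain ⟨s, t, s1, s2, t1, t2, e⟩ := hg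
  obtain ⟨s, rfl⟩ := h.surj s
  obtain ⟨t', rfl⟩ : ∃ t', g = s * t' := ⟨s⁻¹ * g, by group⟩
  obtain rfl : π t' = t := by simpa using e
  have h2 := sq_eq h h1 hZ s1 s2 t1 t2
  have h3 := hZ (s * s) (by rw [map_mul, s2])
  rw [tr_mul_comm s, show (s * t')⁻¹ = t' * (s * s * (t' * t'))⁻¹ * s by group, ← h2, h3]
  simp

theorem four_zero [IsAlgClosed k] (h : R4 p ρ π) (hp : p ≠ 2) {g y : X} (e : (ρ (g ^ 4)).val = -1)
    (t2 : tr ρ (g ^ 2) = 0) (c : Commute y (g ^ 2)) (n : ¬ Commute y g) : tr ρ g = 0 := by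
  obtain ⟨s, h1, hc, -⟩ := h.CH4 g
  rw [val_pow'] at e
  rw [t2, sub_zero] at h1
  have hc' : s • (ρ g).val = tr ρ g • (ρ (g ^ 2)).val + tr ρ g⁻¹ • (1 : M4 k) := by
    have := congrArg (· * (ρ g)⁻¹.val) hc
    simp only [e, add_mul, sub_mul, Matrix.smul_mul, pow_succ _ 2, pow_succ _ 1, pow_one, mul_assoc,
      val_mul_inv, mul_one, zero_mul, neg_mul, one_mul] at this
    rw [val_pow', sq]
    linear_combination (norm := module) this
  by_cases s0 : s = 0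
  · exact pow_eq_zero_iff two_ne_zero |>.1 (by rw [← h1, s0, mul_zero])
  refine absurd (h.ext ?_) n
  have c' := congrArg (fun x => (ρ x).val) c.eq
  simp only [val_mul'] at c'
  refine smul_right_injective _ s0 ?_
  simp only [val_mul']
  rw [← Matrix.mul_smul, ← Matrix.smul_mul, hc', mul_add, add_mul, Matrix.mul_smul, Matrix.smul_mul, c']
  simp

theorem even_case (h : R4 p ρ π) {g : X} {n : ℕ} (hn : p % n = 1 ∨ p % n + 1 = n)
    (re : tr ρ g⁻¹ = tr ρ g) (e : π g ^ n = 1) (h0 : g ^ n = 1 ∨ tr ρ g = 0) :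
    tr ρ (g ^ p) = tr ρ g ∧ tr ρ (g ^ p) = tr ρ g⁻¹ := by
  rw [re, and_self]
  rcases h0 with c | c
  · rcases pow_pm hn c with d | d <;> rw [d]; exact re
  · rw [h.tr_pow_char, c, zero_pow h.prime.ne_zero]

theorem tr_orb {x : X} (c : IsConj x (x ^ 2)) (j m : ℕ) : tr ρ (x ^ (2 ^ j * m)) = tr ρ (x ^ m) := by
  induction j with
  | zero => rw [pow_zero, one_mul]
  | succ j ih => rw [← ih, tr_isConj (c.pow (2 ^ j * m)), ← pow_mul, pow_succ', mul_assoc]

theorem a7_main [IsAlgClosed k] (h : R4 p ρ π) (h1 : H20.LD.One Γ) (hZ : Z2 π) {g : X} (q : QA (π g))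
    (hg : ¬ p ∣ orderOf g) :
    (p % 7 = 0 ∨ p % 7 = 1 ∨ p % 7 = 2 ∨ p % 7 = 4 → tr ρ (g ^ p) = tr ρ g) ∧
    (p % 7 = 0 ∨ p % 7 = 3 ∨ p % 7 = 5 ∨ p % 7 = 6 → tr ρ (g ^ p) = tr ρ g⁻¹) := by
  have hp := h.prime
  have cg : ∀ x, π x = π g → (tr ρ (x ^ p) = tr ρ x → tr ρ (g ^ p) = tr ρ g) ∧
      (tr ρ (x ^ p) = tr ρ x⁻¹ → tr ρ (g ^ p) = tr ρ g⁻¹) := fun x e => by
    obtain ⟨z, hz, rfl⟩ := R4.exists_ker e
    obtain ⟨c, hc⟩ := (h.ker z).1 hz
    have z1 : z ^ p = z := by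
      rcases hp.eq_two_or_odd with c | c
      · rw [h.eq_one_of_two c hz, one_pow]
      · rw [pow_eq_pow_mod p ((sq z).trans (hZ z hz)), c, pow_one]
    rw [(h.comm_of_ker hz x).mul_pow, z1, show (z * x)⁻¹ = z * x⁻¹ by
      rw [(h.comm_of_ker hz x).eq, _root_.mul_inv_rev, inv_eq_of_mul_eq_one_right (hZ z hz)],
      tr_of_scalar hc, tr_of_scalar hc, tr_of_scalar hc]
    exact ⟨fun e => by rw [e], fun e => by rw [e]⟩
  have cp : ∀ a b, π g ^ (a * p ^ b) = 1 → π g ^ a = 1 := fun a b e =>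
    orderOf_dvd_iff_pow_eq_one.1 (((hp.coprime_iff_not_dvd.2 fun c => hg (c.trans
      (orderOf_map_dvd π g))).symm.pow_right b).dvd_of_dvd_mul_right (orderOf_dvd_iff_pow_eq_one.2 e))
  by_cases g1 : π g = 1
  · exact (cg 1 (by rw [g1, map_one])).imp (fun a _ => a (by rw [one_pow])) fun a _ => a (by simp)
  have wk : ∀ {A B C D : Prop}, A ∧ B → (C → A) ∧ (D → B) := fun h => ⟨fun _ => h.1, fun _ => h.2⟩
  have z4 : ∀ x, π x ≠ 1 → π x * π x = 1 → p ≠ 2 → tr ρ x = 0 := fun x a b c =>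
    (h.tr_eq_zero_iff c a b).2 (by rw [← hZ (x * x) (by rw [map_mul, b]), show 4 = 2 + 2 from rfl, pow_add, sq])
  have pr : ∀ N : ℕ, N.Prime → p ≠ N → p % N ≠ 0 := fun N a b c =>
    b ((Nat.prime_dvd_prime_iff_eq a hp).1 (Nat.dvd_of_mod_eq_zero c)).symm
  rcases q with ⟨N, hN, e, c⟩ | e | ⟨s, e, e2, y, y3, c, n⟩ | ⟨s, e, e2, e3, y, y1, y2, c, n⟩
  · have o : Odd N := by rcases hN with rfl | rfl | rfl <;> decide
    obtain ⟨x, hx, xN⟩ := h.lift o e
    have pN : p ≠ N := fun d => g1 (by simpa using cp 1 1 (by simpa [d] using e))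
    have c' := h.isConj_of_odd (g := x) (g' := x ^ 2) o xN
      (by rw [← pow_mul, mul_comm, pow_mul, xN, one_pow]) (by rwa [map_pow, hx])
    have t : ∀ j m, p % N = (2 ^ j * m) % N → tr ρ (x ^ p) = tr ρ (x ^ m) := fun j m e => by
      rw [pow_eq_pow_mod p xN, e, ← pow_eq_pow_mod _ xN, tr_orb c']
    have ta : ∀ j, p % N = (2 ^ j * 1) % N → tr ρ (g ^ p) = tr ρ g := fun j e =>
      (cg x hx).1 ((t j 1 e).trans (by rw [pow_one]))
    have tb : ∀ j, p % N = (2 ^ j * (N - 1)) % N → tr ρ (g ^ p) = tr ρ g⁻¹ := fun j e =>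
      (cg x hx).2 ((t j _ e).trans (by
        rw [inv_eq_of_mul_eq_one_right (b := x ^ (N - 1)) (by
          rw [← pow_succ', Nat.sub_add_cancel o.pos, xN])]))
    rcases hN with rfl | rfl | rfl
    · have := pr 3 (by norm_num) pN
      rcases (by omega : p % 3 = 1 ∨ p % 3 = 2) with d | d
      exacts [wk ⟨ta 0 d, tb 1 d⟩, wk ⟨ta 1 d, tb 0 d⟩]
    · have := pr 5 (by norm_num) pN
      rcases (by omega : p % 5 = 1 ∨ p % 5 = 2 ∨ p % 5 = 3 ∨ p % 5 = 4) with d | d | d | d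
      exacts [wk ⟨ta 0 d, tb 2 d⟩, wk ⟨ta 1 d, tb 3 d⟩, wk ⟨ta 3 d, tb 1 d⟩, wk ⟨ta 2 d, tb 0 d⟩]
    · have := pr 7 (by norm_num) pN
      constructor <;> rintro (d | d | d | d)
      exacts [absurd d this, ta 0 d, ta 1 d, ta 2 d, absurd d this, tb 2 d, tb 1 d, tb 0 d]
  · have p2 : p ≠ 2 := fun d => g1 (by simpa using cp 1 1 (by simpa [d, sq] using e))
    have := pr 2 (by norm_num) p2
    have i : (π g)⁻¹ = π g := inv_eq_of_mul_eq_one_right e
    exact wk (even_case h (n := 2) (by omega) ((z4 _ (by rwa [map_inv, i]) (by rwa [map_inv, i]) p2).trans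
      (z4 g g1 e p2).symm) (by rwa [sq]) (.inr (z4 g g1 e p2)))
  · have p2 : p ≠ 2 := fun d => g1 (by simpa using cp 1 2 (by simpa [d] using e))
    have := pr 2 (by norm_num) p2
    have a1 : π (g ^ 2) ≠ 1 := by rwa [map_pow, sq]
    have a2 : π (g ^ 2) * π (g ^ 2) = 1 := by rw [map_pow, ← pow_add, e]
    refine wk (even_case h (n := 4) (by omega) (re_of_sr h h1 hZ s) e ?_)
    refine (h.pm_of_sq (by rw [map_pow, e]) (hZ _ (by rw [map_pow, e]))).imp_right fun d => ?_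
    obtain ⟨y', rfl, y4⟩ := h.lift (N := 3) (by decide) y3
    exact four_zero h p2 d (z4 _ a1 a2 p2) (h.commute_of_odd (N := 3) (by decide) y4 (by rwa [map_pow, sq]))
      fun d => n (d.map π)
  · have p2 : p ≠ 2 := fun d => e3 (cp 3 1 (by simpa [d] using e))
    have p3 : p ≠ 3 := fun d => e2 (by rw [← sq]; exact cp 2 1 (by simpa [d] using e))
    have := pr 2 (by norm_num) p2
    have := pr 3 (by norm_num) p3
    refine wk (even_case h (n := 6) (by omega) (re_of_sr h h1 hZ s) e (or_iff_not_imp_left.2 fun d => ?_))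
    obtain ⟨y, rfl⟩ := h.surj y
    refine (h.tr_eq_zero_of_not_commute p2 c y2 fun c' => d ?_).2
    have a2 : π (g ^ 3) * π (g ^ 3) = 1 := by rw [map_pow, ← pow_add, e]
    have b2 := sq_eq h h1 hZ (s := g ^ 3 * y) (by rwa [map_mul, map_pow]) (by
      rw [← map_mul, ← sq, (c'.symm.pow_left 3).mul_pow, map_mul, sq, sq, map_mul, map_mul, a2, y2,
        mul_one]) y1 y2
    rw [← sq, (c'.symm.pow_left 3).mul_pow, sq y, mul_eq_right, ← pow_mul] at b2
    exact b2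

theorem jobA7 : JobA7.{u, v} := by
  rintro p k _ _ X _ _ Γ _ ρ π h ⟨e⟩ hZ
  have hZ := hZ (dih_map e.symm dih7)
  have key := fun g => a7_main h (one_map e.symm one7) hZ (g := g)
    (by simpa using (qa7 (e (π g))).map e.symm)
  exact ⟨fun c => h.tf_of fun g hg => by rw [← h.tr_pow_char, (key g hg).1 c],
    fun c => h.tu_of fun g hg => by rw [← h.tr_pow_char, (key g hg).2 c]⟩

end H72.LD4
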