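/- Job Real of `blueprints/LD4.md`. -/
import Cfsg.Agent.H72.LD4A
import Cfsg.Agent.H14.FlavA

set_option autoImplicit false
set_option maxRecDepth 100000

namespace H72.LD4

open Cfsg H20.LD Matrix Subgroup
open scoped commutatorElement MatrixGroups

universe u v

attribute [local instance 2000] List.decidableBAll List.decidableBEx

variable {k : Type u} [Field k] {X : Type u} [Group X] {Γ : Type v} [Group Γ] {p : ℕ}
  {ρ : X →* G4 k} {π : X →* Γ}

theorem z2_of_dih [Finite X] (h : R4 p ρ π) (hD : Dih Γ) : Z2 π := by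
  obtain ⟨S, r, s, s2, sr, hS⟩ := hD
  obtain ⟨r, rfl⟩ := h.surj r
  obtain ⟨s, rfl⟩ := h.surj s
  intro z hz
  let A := (zpowers (π r)).comap π
  have ab : ∀ a ∈ A, ∀ b ∈ A, a * b = b * a := by
    rintro a ⟨i, hi⟩ b ⟨j, hj⟩
    rw [← commutatorElement_eq_one_iff_mul_comm, ← h.comm_congr (g := r ^ i) (a := r ^ j)
      (by rw [map_zpow]; exact hi) (by rw [map_zpow]; exact hj)]
    exact commutatorElement_eq_one_iff_commute.2 (Commute.zpow_zpow_self r i j)
  have nA : ∀ a ∈ A, s * a * s⁻¹ ∈ A := by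
    rintro a ⟨i, hi⟩
    exact ⟨-i, by simp only [map_mul, map_inv, ← hi, ← conj_zpow, sr]; simp⟩
  have ss : ∀ a, s * (s * a * s⁻¹) * s⁻¹ = a := fun a => by
    calc _ = s * s * a * (s * s)⁻¹ := by group
      _ = a := by rw [(h.comm_of_ker (by rw [map_mul, s2]) a).eq, mul_inv_cancel_right]
  let I : Subgroup X :=
    { carrier := {c | c ∈ A ∧ s * c * s⁻¹ = c⁻¹}
      one_mem' := ⟨A.one_mem, by simp⟩
      mul_mem' := fun {a b} ha hb => ⟨A.mul_mem ha.1 hb.1, by
        rw [← conj_mul, ha.2, hb.2, ab a ha.1 b hb.1, _root_.mul_inv_rev]⟩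
      inv_mem' := fun {a} ha => ⟨A.inv_mem ha.1, by rw [← conj_inv, ha.2]⟩ }
  have K : ∀ d ∈ A, d * (s * d * s⁻¹)⁻¹ ∈ I := fun d hd =>
    ⟨A.mul_mem hd (A.inv_mem (nA d hd)), by rw [← conj_mul, ← conj_inv, ss]; simp⟩
  have dec : ∀ x, π x ∈ S → x ∈ A ∨ ∃ a ∈ A, x = a * s := fun x hx =>
    (hS _ hx).imp_right fun e => ⟨x * s⁻¹, by
      rwa [mem_comap, map_mul, map_inv, inv_eq_of_mul_eq_one_right s2], by simp⟩
  have mix : ∀ a ∈ A, ∀ b ∈ A, ⁅a, b * s⁆ ∈ I := fun a ha b hb => by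
    convert K a ha using 1
    calc _ = a * (b * (s * a * s⁻¹)⁻¹) * b⁻¹ := by simp only [commutatorElement_def]; group
      _ = _ := by rw [ab b hb _ (A.inv_mem (nA a ha))]; group
  let T : Sylow 2 X := S.comapOfKerIsPGroup π (fun x => ⟨2, Subtype.ext (h.pow_four x.2)⟩) (by rw [MonoidHom.range_eq_top.2 h.surj]; exact le_top)
  have zT : z ∈ T := show π z ∈ S by rw [hz]; exact S.one_mem
  have h1 := H14.Fv.mem_comm_sylow T zT (mem_center_iff.2 fun g => (h.comm_of_ker hz g).symm)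
    (h.perf ▸ mem_top _)
  have h2 : commutator T ≤ I.comap (T : Subgroup X).subtype := by
    rw [_root_.commutator_def, commutator_le]
    rintro ⟨x, hx⟩ - ⟨y, hy⟩ -
    change ⁅x, y⁆ ∈ I
    rcases dec x hx with a | ⟨a, ha, rfl⟩ <;> rcases dec y hy with b | ⟨b, hb, rfl⟩
    · rw [commutatorElement_eq_one_iff_mul_comm.2 (ab _ a _ b)]; exact I.one_mem
    · exact mix _ a _ hb
    · rw [← commutatorElement_inv]; exact I.inv_mem (mix _ b _ ha)
    · have hd := A.mul_mem ha (A.inv_mem hb)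
      convert K _ hd using 1
      calc _ = a * ((s * (a * b⁻¹) * s⁻¹)⁻¹ * b⁻¹) := by simp only [commutatorElement_def]; group
        _ = _ := by rw [ab _ (A.inv_mem (nA _ hd)) _ (A.inv_mem hb)]; group
  have h3 := (h2 h1).2
  change s * z * s⁻¹ = z⁻¹ at h3
  rw [← (h.comm_of_ker hz s).eq, mul_inv_cancel_right] at h3
  exact mul_eq_one_iff_eq_inv.2 h3

theorem no_small [Finite X] (h : R4 p ρ π) (A B : X → Matrix (Fin 3) (Fin 3) k)
    (e : ∀ x y, tr ρ (x * y) = (A x * B y).trace + 1) : False := by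
  have := Fintype.ofFinite X
  let F := Fintype.linearCombination k fun x => (ρ x).val
  let G := Fintype.linearCombination k fun x => (A x, (1 : k))
  have sp : ∀ M : M4 k, M ∈ LinearMap.range F := fun M => by
    rw [Fintype.range_linearCombination]
    exact H19.gspan_induction (p := fun M => M ∈ Submodule.span k (Set.range fun x => (ρ x).val))
      (h.span ▸ Algebra.mem_top : M ∈ H19.gspan ρ.range)
      (by rintro _ ⟨x, rfl⟩; exact Submodule.subset_span ⟨x, rfl⟩) (Submodule.zero_mem _)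
      (fun _ _ => Submodule.add_mem _) fun c _ => Submodule.smul_mem _ c
  have kr : LinearMap.ker G ≤ LinearMap.ker F := fun c hc => by
    rw [LinearMap.mem_ker, Fintype.linearCombination_apply, Prod.ext_iff, Prod.fst_sum, Prod.snd_sum] at hc
    simp only [Prod.smul_mk, Prod.fst_zero, Prod.snd_zero] at hc
    refine (ext_iff_trace_mul_right).2 fun M => ?_
    obtain ⟨d, rfl⟩ := sp M
    have t : ∀ y, (F c * (ρ y).val).trace = 0 := fun y => by
      have := congrArg (fun M => (M * B y).trace) hc.1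
      simp only [Finset.sum_mul, trace_sum, Matrix.smul_mul, trace_smul, zero_mul, trace_zero] at this
      simp only [F, Fintype.linearCombination_apply, Finset.sum_mul, trace_sum, Matrix.smul_mul, trace_smul,
        ← val_mul']
      change ∑ x, c x • tr ρ (x * y) = 0
      simp only [e, smul_add, Finset.sum_add_distrib, this, hc.2, add_zero]
    rw [zero_mul, trace_zero, Fintype.linearCombination_apply k _ d]
    simp only [Finset.mul_sum, trace_sum, Matrix.mul_smul, trace_smul, t, smul_zero, Finset.sum_const_zero]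
  have h1 := F.finrank_range_add_finrank_ker
  have h2 := G.finrank_range_add_finrank_ker
  have h3 := Submodule.finrank_mono kr
  have h4 := Submodule.finrank_le (LinearMap.range G)
  rw [(eq_top_iff.2 fun M _ => sp M : LinearMap.range F = ⊤), finrank_top] at h1
  simp only [Module.finrank_matrix, Module.finrank_prod, Fintype.card_fin, Module.finrank_self] at h1 h4
  omega

theorem two_mat (h2 : (2 : k) = 0) (M : M4 k) : M + M = 0 := by rw [← two_smul k, h2, zero_smul]

theorem quad3 (h : R4 p ρ π) (h2 : (2 : k) = 0) {u : X} (u3 : u ^ 3 = 1) (u1 : u ≠ 1) (t : tr ρ u = 0)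
    (t' : tr ρ u⁻¹ = 0) : (ρ u⁻¹).val + (ρ u).val + 1 = 0 := by
  obtain ⟨s, -, e, -⟩ := h.CH4 u
  have i : u⁻¹ = u ^ 2 := inv_eq_of_mul_eq_one_right (by rw [← pow_succ', u3])
  rw [t, t', ← val_pow', ← val_pow' u 2, pow_succ, u3, one_mul, ← i] at e
  simp only [zero_smul, sub_zero] at e
  have e' := congrArg (· * (ρ u).val) e
  simp only [add_mul, Matrix.smul_mul, ← val_mul', inv_mul_cancel, map_one, Units.val_one,
    one_mul, zero_mul] at e'
  rw [← sq, ← i] at e'
  by_cases s1 : s = 1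
  · rw [← e, s1, one_smul, add_comm (ρ u).val]
  · have : (s - 1) • ((ρ u⁻¹).val - 1) = 0 := by linear_combination (norm := module) e - e'
    rw [smul_eq_zero, sub_eq_zero, sub_eq_zero] at this
    exact absurd (inv_eq_one.1 (h.eq_one (this.resolve_left s1))) u1

theorem tr01 (h : R4 p ρ π) (hp : p = 2) {x : X} (c : IsConj x (x ^ 2)) : tr ρ x = 0 ∨ tr ρ x = 1 := by
  have := h.tr_pow_char x
  rw [hp, ← tr_isConj c] at this
  exact (mul_eq_zero.1 (by linear_combination -this : tr ρ x * (tr ρ x - 1) = 0)).imp_right sub_eq_zero.1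

theorem tr_seven (h : R4 p ρ π) (hp : p = 2) {g a : X} (g7 : g ^ 7 = 1) (g1 : g ≠ 1)
    (c : a * g * a⁻¹ = g ^ 2) : tr ρ g⁻¹ = tr ρ g + 1 := by
  have h2 := h.two_eq hp
  have c1 : IsConj g (g ^ 2) := isConj_iff.2 ⟨a, c⟩
  have ne : ∀ n, n.Coprime 7 → (ρ g).val ^ n ≠ 1 := fun n hn e => g1 (by
    simpa [hn] using pow_gcd_eq_one.2 ⟨h.eq_one ((val_pow' g n).trans e), g7⟩)
  obtain ⟨s, -, e, e3⟩ := h.CH4 g
  have t3 : tr ρ (g ^ 3) = tr ρ g⁻¹ := by
    rw [tr_isConj (c1.pow 3), ← pow_mul, inv_eq_of_mul_eq_one_right (b := g ^ 6) (by rw [← pow_succ', g7])]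
  rw [t3, ← tr_isConj c1] at e3
  rcases tr01 h hp c1 with t | t <;>
    rcases tr01 h hp (x := g⁻¹) (isConj_iff.2 ⟨a, by rw [← conj_inv, c, inv_pow]⟩) with t' | t'
  · exfalso
    simp only [t, t', zero_smul, sub_zero, ← val_pow'] at e
    have cj : ∀ n, a * a * g ^ n * (a * a)⁻¹ = g ^ (4 * n) := fun n => by
      rw [← conj_pow, show a * a * g * (a * a)⁻¹ = a * (a * g * a⁻¹) * a⁻¹ by group, c, ← conj_pow, c,
        ← pow_mul, ← pow_mul, ← mul_assoc, show 2 * 2 = 4 from rfl]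
    have e' := congrArg (fun M => (ρ (a * a)).val * M * (ρ (a * a)⁻¹).val) e
    simp only [mul_add, add_mul, Matrix.mul_smul, Matrix.smul_mul, ← val_mul', cj, mul_one, mul_inv_cancel,
      mul_zero, zero_mul, map_one, Units.val_one] at e'
    rw [pow_eq_pow_mod (4 * 4) g7, pow_eq_pow_mod (4 * 2) g7] at e'
    simp only [val_pow', Nat.reduceMul, Nat.reduceMod, pow_one] at e e'
    have G0 : (ρ g).val ^ 2 ≠ 0 := fun z => val_det_ne_zero (ρ (g ^ 2)) (by rw [val_pow', z]; simp)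
    generalize (ρ g).val = G at *
    have e2 : G ^ 2 = -(s • G + 1) := by linear_combination (norm := module) e'
    have e4 : G ^ 4 = (s * s) • G ^ 2 + (2 * s) • G + 1 := by
      rw [show G ^ 4 = G ^ 2 * G ^ 2 from pow_add G 2 2]
      conv_lhs => rw [e2, neg_mul_neg]
      simp only [mul_add, add_mul, Matrix.mul_smul, Matrix.smul_mul, mul_one, one_mul, sq]
      module
    have e5 : (s * (s + 1)) • G ^ 2 = 0 := by
      linear_combination (norm := module) e - e4 - h2 • (s • G + 1)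
    rcases mul_eq_zero.1 ((smul_eq_zero.1 e5).resolve_right G0) with z | z
    · exact ne 2 (by decide) (by
        rw [e2, z]; linear_combination (norm := module) -h2 • (1 : M4 k))
    · refine ne 3 (by decide) ?_
      have : G ^ 2 = G + 1 := by linear_combination (norm := module) e2 - z • G - h2 • (1 : M4 k)
      rw [pow_succ, this, add_mul, ← sq, this, one_mul, add_right_comm, two_mat h2, zero_add]
  · rw [t, t', zero_add]
  · rw [t, t']; linear_combination -h2
  · exfalso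
    rw [t, t'] at e e3
    have s1 : s = 1 := by linear_combination e3 + h2
    rw [s1] at e
    refine ne 5 (by decide) ?_
    generalize (ρ g).val = G at *
    simp only [one_smul] at e
    linear_combination (norm := noncomm_ring) (G + 1) * e - two_mat h2 1

theorem tr_three (h : R4 p ρ π) (hp : p = 2) {g a b : X} (g7 : g ^ 7 = 1) (g1 : g ≠ 1)
    (c : a * g = g * g * a) (b3 : b ^ 3 = 1) (b1 : b ≠ 1) (c0 : IsConj b (b ^ 2)) (c1 : IsConj b a)
    (c2 : IsConj b (a * g)) : tr ρ b = 1 := by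
  have h2 := h.two_eq hp
  refine (tr01 h hp c0).resolve_left fun t => ?_
  have key : ∀ u, IsConj b u → (ρ u⁻¹).val + (ρ u).val + 1 = 0 := fun u c => by
    have u3 : u ^ 3 = 1 := isConj_one_right.1 (b3 ▸ c.pow 3)
    refine quad3 h h2 u3 (fun e => b1 (isConj_one_left.1 (e ▸ c))) ((tr_isConj c).symm.trans t) ?_
    rw [inv_eq_of_mul_eq_one_right (b := u ^ 2) (by rw [← pow_succ', u3]), ← tr_isConj (c.pow 2),
      ← tr_isConj c0, t]
  have eA := key a c1
  have eB := congrArg ((ρ g).val * ·) (key _ c2)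
  have r := congrArg (fun x => (ρ x).val) c
  simp only [mul_add, ← val_mul', _root_.mul_inv_rev, mul_inv_cancel_left, mul_one, mul_zero] at eB
  simp only [val_mul'] at eB r
  have : (ρ (g * g * g)).val = (ρ g).val := by
    simp only [val_mul']
    generalize (ρ g).val = G at *
    generalize (ρ a).val = H at *
    generalize (ρ a⁻¹).val = K at *
    have C : G * G * G * H - H + G - 1 = 0 := by linear_combination (norm := noncomm_ring) eB - eA - G * r
    linear_combination (norm := noncomm_ring) G * G * C - C * G + (G * G * G - 1) * r +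
      two_mat h2 (G * G) - two_mat h2 G
  have g2 : g ^ 2 = 1 := by rw [sq]; exact mul_eq_right.1 (h.ext this)
  simpa [g1] using pow_gcd_eq_one.2 ⟨g2, g7⟩

/-- a matrix of determinant one -/
def s3 (M : Matrix (Fin 3) (Fin 3) (ZMod 2)) (h : M.det = 1 := by decide +kernel) : SL(3, ZMod 2) := ⟨M, h⟩

theorem tr_conj3 (s y : SL(3, ZMod 2)) : (s * y * s⁻¹).val.trace = y.val.trace := by
  change ((s * y).val * (s⁻¹).val).trace = _
  rw [trace_mul_comm]
  exact congrArg (fun x : SL(3, ZMod 2) => x.val.trace) (inv_mul_cancel_left s y)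

theorem cls32 (x : SL(3, ZMod 2)) : (x ^ 4 = 1 ∧ x.val.trace = 1 ∧ (x⁻¹).val.trace = 1) ∨
    IsConj H19.b2 x ∨ IsConj (H19.a2 * H19.b2) x ∨ IsConj (H19.a2 * H19.b2)⁻¹ x := by
  obtain ⟨r, hr, s, rfl⟩ := H19.exists_rep2 x
  rw [conj_pow, conj_inv, tr_conj3, tr_conj3, conj_eq_one_iff]
  have : ∀ r ∈ H19.reps2, (r.1 ^ 4 = 1 ∧ r.1.val.trace = 1 ∧ (r.1⁻¹).val.trace = 1) ∨
    H19.b2 = r.1 ∨ H19.a2 * H19.b2 = r.1 ∨ (H19.a2 * H19.b2)⁻¹ = r.1 := by decide +kernel
  have c : ∀ {y}, y = r.1 → IsConj y (s * r.1 * s⁻¹) := fun e => isConj_iff.2 ⟨s, by rw [e]⟩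
  exact (this r hr).imp_right (.imp c (.imp c c))

theorem not_l32 [Finite X] (h : R4 p ρ π) (hp : p = 2) (f : X ≃* SL(3, ZMod 2)) : False := by
  have h2 := h.two_eq hp
  have : CharP k 2 := hp ▸ h.char
  let φ := ZMod.castHom (dvd_refl 2) k
  have cj : ∀ {x y : SL(3, ZMod 2)}, IsConj x y → IsConj (f.symm x) (f.symm y) := fun c =>
    f.symm.toMonoidHom.map_isConj c
  have ck : ∀ {x y : SL(3, ZMod 2)} (s : SL(3, ZMod 2)), s * x = y * s → IsConj (f.symm x) (f.symm y) :=
    fun s c => cj (isConj_iff.2 ⟨s, mul_inv_eq_iff_eq_mul.2 c⟩)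
  obtain ⟨-, -, b3, b1, g7, g1⟩ := H19.ab2_rel
  have g7' : f.symm (H19.a2 * H19.b2) ^ 7 = 1 := by rw [← map_pow, g7, map_one]
  have g1' : f.symm (H19.a2 * H19.b2) ≠ 1 := f.symm.map_ne_one_iff.2 g1
  have c7 : f.symm (s3 !![0, 0, 1; 1, 0, 1; 1, 1, 0]) * f.symm (H19.a2 * H19.b2) =
      f.symm (H19.a2 * H19.b2) * f.symm (H19.a2 * H19.b2) * f.symm (s3 !![0, 0, 1; 1, 0, 1; 1, 1, 0]) := by
    rw [← map_mul f.symm, ← map_mul f.symm, ← map_mul f.symm]
    exact congrArg f.symm (by decide +kernel)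
  have t7 := tr_seven h hp g7' g1' (mul_inv_eq_iff_eq_mul.2 (by rw [c7, sq]))
  have t01 := tr01 h hp (isConj_iff.2 ⟨_, mul_inv_eq_iff_eq_mul.2 (by rw [c7, sq])⟩)
  have t3 := tr_three h hp g7' g1' c7 (b := f.symm H19.b2) (by rw [← map_pow, b3, map_one])
    (f.symm.map_ne_one_iff.2 b1)
    (by rw [← map_pow]; exact ck (s3 !![0, 0, 1; 0, 1, 0; 1, 0, 0]) (by decide +kernel))
    (ck (s3 !![0, 0, 1; 1, 0, 1; 0, 1, 0]) (by decide +kernel))
    (by rw [← map_mul]; exact ck (s3 !![0, 0, 1; 0, 1, 0; 1, 1, 1]) (by decide +kernel))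
  have t4 : ∀ x, x ^ 4 = 1 → tr ρ (f.symm x) = 0 := fun x e => by
    have := h.tr_pow_char_pow (f.symm x) 2
    rw [hp, ← map_pow, show 2 ^ 2 = 4 from rfl, e, map_one, tr_one] at this
    exact pow_eq_zero_iff (n := 4) (by norm_num) |>.1 (by linear_combination 2 * h2 - this)
  have tc : ∀ {x y : SL(3, ZMod 2)}, IsConj x y → y.val.trace = x.val.trace ∧
      (y⁻¹).val.trace = (x⁻¹).val.trace := fun {x y} c => by
    obtain ⟨s, rfl⟩ := isConj_iff.1 c
    rw [conj_inv, tr_conj3, tr_conj3]; exact ⟨rfl, rfl⟩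
  have v : H19.b2.val.trace = 0 ∧ (H19.b2⁻¹).val.trace = 0 ∧ (H19.a2 * H19.b2).val.trace = 1 ∧
      ((H19.a2 * H19.b2)⁻¹).val.trace = 0 := by decide +kernel
  have o : (1 : k) + 1 = 0 := by linear_combination h2
  rw [← map_inv] at t7
  have tm : ∀ x y : SL(3, ZMod 2), φ (x * y).val.trace = (x.val.map φ * y.val.map φ).trace := fun x y => by
    rw [← Matrix.map_mul, ← AddMonoidHom.map_trace]; rfl
  rcases t01 with t | t
  · refine no_small h (fun x => (f x).val.map φ) (fun x => (f x).val.map φ) fun x y => ?_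
    rw [← tm, ← map_mul, ← f.symm_apply_apply (x * y), f.apply_symm_apply]
    rcases cls32 (f (x * y)) with ⟨a, b, -⟩ | c | c | c
    · rw [t4 _ a, b, map_one, o]
    · rw [← tr_isConj (cj c), t3, (tc c).1, v.1, map_zero, zero_add]
    · rw [← tr_isConj (cj c), t, (tc c).1, v.2.2.1, map_one, o]
    · rw [← tr_isConj (cj c), t7, t, (tc c).1, v.2.2.2, map_zero]
  · refine no_small h (fun x => (f x)⁻¹.val.map φ) (fun x => (f x)⁻¹.val.map φ) fun x y => ?_
    rw [trace_mul_comm, ← tm, ← _root_.mul_inv_rev, ← map_mul, ← f.symm_apply_apply (x * y),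
      f.apply_symm_apply]
    rcases cls32 (f (x * y)) with ⟨a, -, b⟩ | c | c | c
    · rw [t4 _ a, b, map_one, o]
    · rw [← tr_isConj (cj c), t3, (tc c).2, v.2.1, map_zero, zero_add]
    · rw [← tr_isConj (cj c), t, (tc c).2, v.2.2.2, map_zero, zero_add]
    · rw [← tr_isConj (cj c), t7, t, (tc c).2, inv_inv, v.2.2.1, map_one]

theorem jobReal : JobReal.{u, v} := by
  intro p k _ _ X _ _ Γ _ ρ π h
  refine ⟨z2_of_dih h, fun hZ hR => h.re_of fun g hg => ?_, fun hp hR => h.re_of fun g hg => ?_,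
    fun hp => ⟨fun e => not_l32 h hp ((MulEquiv.ofBijective π ⟨h.inj_of_two hp, h.surj⟩).trans e)⟩⟩
  · by_cases g1 : π g = 1
    · rw [inv_eq_of_mul_eq_one_right (hZ g g1)]
    · exact re_of_sr h hR.1 hZ (hR.2 _ g1 fun c => hg (c.trans (orderOf_map_dvd π g)))
  · have o : Odd (orderOf g) := by rwa [← Nat.not_even_iff_odd, even_iff_two_dvd, ← hp]
    exact (tr_isConj (h.isConj_of_odd o (pow_orderOf_eq_one g) (by rw [inv_pow, pow_orderOf_eq_one, inv_one])
      (by rw [map_inv]; exact hR _ (o.of_dvd_nat (orderOf_map_dvd π g))))).symm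

end H72.LD4
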