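/- Job OH of `blueprints/LD5.md`: orthogonal families of rank one idempotents. -/
import Cfsg.Agent.H41.LDKit2

set_option autoImplicit false

namespace H72.LD

open Matrix Cfsg Cfsg.Geo H19 H41.LD

universe u

variable {K : Type u} [Field K] {n : ℕ} {G H : Subgroup (GL (Fin n) K)} {E E' y : R n K}

/-- orthogonal rank one matrices -/
def Ot (E E' : R n K) : Prop := N E * N E' = 0 ∧ N E' * N E = 0

theorem ot_iff (h : E.2 ⬝ᵥ E.1 = 1) (h' : E'.2 ⬝ᵥ E'.1 = 1) :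
    Ot E E' ↔ E.2 ⬝ᵥ E'.1 = 0 ∧ E'.2 ⬝ᵥ E.1 = 0 := by
  have k : ∀ {x : R n K}, x.2 ⬝ᵥ x.1 = 1 → x.1 ≠ 0 ∧ x.2 ≠ 0 := fun h =>
    ⟨fun e => by simp [e] at h, fun e => by simp [e] at h⟩
  simp [Ot, N_mul_N, N_eq_zero, k h, k h']

theorem cj_dot (hy : y.2 ⬝ᵥ y.1 = 2) (E E' : R n K) : (H41.LD.cj y E).2 ⬝ᵥ (H41.LD.cj y E').1 = E.2 ⬝ᵥ E'.1 := by
  rw [← cg_rf hy, ← cg_rf hy, cg_dot]

theorem ortho {F Y : Set (R n K)} (hF : ∀ E ∈ F, E.2 ⬝ᵥ E.1 = 1) (hY : ∀ y ∈ Y, y.2 ⬝ᵥ y.1 = 2)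
    (inv : ∀ y ∈ Y, ∀ E ∈ F, H41.LD.cj y E ∈ F)
    (h1 : ∀ y ∈ Y, ∀ E ∈ F, N (H41.LD.cj y E) = N E ∨ cc y E = 1)
    (h2 : ∀ E ∈ F, ∀ E' ∈ F, cc E E' = 1 → N E = N E') {E₀ : R n K} (h0 : E₀ ∈ F) :
    ∃ S ⊆ F, E₀ ∈ S ∧ (∀ E ∈ S, ∀ E' ∈ S, N E = N E' ∨ Ot E E') ∧
      ∀ y ∈ Y, ∀ E ∈ S, ∃ E' ∈ S, N E' = (1 - N y) * N E * (1 - N y) := by
  obtain ⟨S, s0, hS⟩ := zorn_subset_nonempty
    {S | S ⊆ F ∧ ∀ E ∈ S, ∀ E' ∈ S, N E = N E' ∨ Ot E E'} (fun c hc ch _ => ⟨⋃₀ c,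
      ⟨Set.sUnion_subset fun s hs => (hc hs).1, fun E ⟨s, hs, h⟩ E' ⟨s', hs', h'⟩ =>
        (ch.total hs hs').elim (fun l => (hc hs').2 E (l h) E' h') fun l => (hc hs).2 E h E' (l h')⟩,
      fun s => Set.subset_sUnion_of_mem⟩) {E₀} ⟨by simpa, by simp⟩
  obtain ⟨s1, s2⟩ := hS.prop
  refine ⟨S, s1, s0 rfl, s2, fun y hy E hE => ?_⟩
  rw [← N_cj]
  by_contra! c
  have e1 := (h1 y hy E (s1 hE)).resolve_left (c E hE).symm
  have a := inv y hy E (s1 hE)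
  have k : ∀ E' ∈ S, Ot (H41.LD.cj y E) E' := fun E' hE' => by
    have o : N E = N E' → Ot (H41.LD.cj y E) E' := fun e => by
      rw [Ot, ← e, ← Ot, ot_iff (hF _ a) (hF _ (s1 hE)), cj_dot_left, cj_dot_right, hF _ (s1 hE)]
      unfold cc at e1
      constructor <;> linear_combination -e1
    refine (s2 E hE E' hE').elim o fun o => ?_
    rw [ot_iff (hF _ (s1 hE)) (hF _ (s1 hE'))] at o
    rcases h1 y hy E' (s1 hE') with e | e
    · rw [Ot, ← e, ← Ot, ot_iff (hF _ a) (hF _ (inv y hy _ (s1 hE'))), cj_dot (hY y hy), cj_dot (hY y hy)]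
      exact o
    · refine (c E' hE' (h2 _ (s1 hE') _ a ?_)).elim
      unfold cc at e e1 ⊢
      rw [cj_dot_left, cj_dot_right, o.1, o.2]
      linear_combination e1 + (y.2 ⬝ᵥ E.1 * E.2 ⬝ᵥ y.1) * e
  refine c _ (hS.2 ⟨Set.insert_subset a s1, ?_⟩ (Set.subset_insert _ _) (Set.mem_insert _ _)) rfl
  rintro x (rfl | hx) x' (rfl | hx')
  exacts [.inl rfl, .inr (k _ hx'), .inr (k _ hx).symm, s2 _ hx _ hx']

theorem two (hH : NoTv H) {l : K} (l0 : l ≠ 0) (l2 : l ^ 2 ≠ 1) {C : Matrix (Fin n) (Fin n) K}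
    (h : E.2 ⬝ᵥ E.1 = 1) (h' : E'.2 ⬝ᵥ E'.1 = 1) (c : cc E E' = 1) (i : In H ((1 + (l - 1) • N E) * C))
    (i' : In H ((1 + (l - 1) • N E') * C)) (c1 : C *ᵥ E.1 = E.1 ∧ E.2 ᵥ* C = E.2)
    (c2 : C *ᵥ E'.1 = E'.1 ∧ E'.2 ᵥ* C = E'.2) : N E = N E' := by
  obtain ⟨e, ε⟩ := E
  have a0 : ε ⬝ᵥ E'.1 ≠ 0 := left_ne_zero_of_mul_eq_one c
  have l1 : l - 1 ≠ 0 := fun e => l2 (by rw [sub_eq_zero.1 e, one_pow])
  obtain ⟨f, hf⟩ : ∃ f, (ε ⬝ᵥ E'.1)⁻¹ • E'.1 = e + f := ⟨_, (add_sub_cancel _ _).symm⟩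
  obtain ⟨χ, hχ⟩ : ∃ χ, (ε ⬝ᵥ E'.1)⁻¹⁻¹ • E'.2 = ε + χ := ⟨_, (add_sub_cancel _ _).symm⟩
  rw [← N_scale (inv_ne_zero a0) E', hf, hχ] at i' ⊢
  simp only [cc] at h c c1
  have h1 : ε ⬝ᵥ f = 0 := by simpa [a0, h] using congrArg (ε ⬝ᵥ ·) hf
  have h2 : χ ⬝ᵥ e = 0 := by simpa [c, h] using congrArg (· ⬝ᵥ e) hχ
  have h3 : χ ⬝ᵥ f = 0 := by simpa [a0, h, h', h1, h2] using congrArg₂ (· ⬝ᵥ ·) hχ hf
  have h4 : C *ᵥ f = f := by rw [← sub_eq_of_eq_add' hf, mulVec_sub, mulVec_smul, c1.1, c2.1]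
  have h5 : χ ᵥ* C = χ := by rw [← sub_eq_of_eq_add' hχ, sub_vecMul, smul_vecMul, c1.2, c2.2]
  obtain ⟨rfl, rfl⟩ := hl0 hH (μ := l) (i'.of_mul i (by
      rw [← hl l0 h h2, mul_assoc, ← mul_assoc _ _ C,
        show (1 + (l⁻¹ - 1) • N (e, ε)) * (1 + (l - 1) • N (e, ε)) = 1 by
          simp only [mul_add, add_mul, smul_mul_assoc, mul_smul_comm, N_mk_mul, h, mul_one, one_mul]
          match_scalars <;> field_simp <;> ring, one_mul])) l1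
    (fun e => l1 (by rw [inv_eq_one.1 (sub_eq_zero.1 e).symm, sub_self])) (by simp [h]) h2 h3 h1 i
    (by rw [← mulVec_mulVec, c1.1, add_mulVec, smul_mulVec, N_mulVec]; simp [h, sub_smul])
    (by rw [← vecMul_vecMul, vecMul_add, vecMul_smul, vecMul_N]; simp [h, sub_smul, smul_vecMul, c1])
    (by rw [← mulVec_mulVec, h4]; simp [add_mulVec, smul_mulVec, N_mulVec, h1])
    (by rw [← vecMul_vecMul]; simp [vecMul_add, vecMul_smul, vecMul_N, h2, h5]) l2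
  simp

theorem fix_of_comm (hy : y.2 ⬝ᵥ y.1 = 2) (h : N E * N y = N y * N E) : N (H41.LD.cj y E) = N E := by
  rw [N_cj, sub_mul, one_mul, ← h, ← mul_one_sub, mul_assoc, rf_mul_self hy, mul_one]

/-- the hypothesis on homologies -/
def Hom (G : Subgroup (GL (Fin 5) K)) : Prop := ∀ (A : Matrix (Fin 5) (Fin 5) K) (l : K), A * A = A →
  l ^ 2 ≠ 1 → (∃ g ∈ G ⊔ scalars (Fin 5) K, g.val = 1 + (l - 1) • A) → ∀ x, Rf G x →
    A * N x = N x * A ∨ x.2 ⬝ᵥ A *ᵥ x.1 = 1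

theorem noHom {G : Subgroup (GL (Fin 5) K)} (hG : RS G) (h2 : (2 : K) ≠ 0) (h : Hom G) {x : R 5 K}
    (hx : Rf G x) : NoHom G := fun E l hE hg => by_contra fun l2 => by
  have E1 : N E ≠ 0 := fun e => by rw [← trace_N, e] at hE; simp at hE
  have l1 : l - 1 ≠ 0 := fun e => l2 (by rw [sub_eq_zero.1 e, one_pow])
  have l0 : l ≠ 0 := fun e => E1 (N_eq_zero.2 (.inl (In.eq_zero hg (by
    rw [add_mulVec, smul_mulVec, N_mulVec]; simp [e, hE]))))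
  obtain ⟨S, s1, s0, s2, s3⟩ := ortho (Y := {y | Rf G y})
    (F := {E | E.2 ⬝ᵥ E.1 = 1 ∧ In (G ⊔ scalars (Fin 5) K) (1 + (l - 1) • N E)}) (fun _ h => h.1)
    (fun _ h => h.1) (fun y hy E hE => ⟨(cj_dot hy.1 _ _).trans hE.1, by
      have := ((hy.isIn.mono le_sup_left).mul hE.2).mul (hy.isIn.mono le_sup_left)
      rwa [mul_add, add_mul, mul_one, rf_mul_self hy.1, mul_smul_comm, smul_mul_assoc, ← N_cj] at this⟩)
    (fun y hy E hE => (h (N E) l (by rw [N_mul_N, hE.1, one_smul]) l2 hE.2 y hy).imp (fix_of_comm hy.1)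
      fun e => by rw [← e, N_mulVec, cc, dotProduct_smul, smul_eq_mul, mul_comm])
    (fun E hE E' hE' c => two (hG.noTv h2) l0 l2 (C := 1) hE.1 hE'.1 c (by simpa using hE.2)
      (by simpa using hE'.2) (by simp) (by simp)) (E₀ := E) ⟨hE, hg⟩
  have p : ∀ g ∈ G, ∀ E ∈ S, ∃ E' ∈ S, g.val * N E = N E' * g.val := fun g hg => by
    obtain ⟨k, hk, c, rfl⟩ := mem_sup_scalars ((hG.gen_all hx).2 hg)
    have := gen_induction (fun _ h => h.1) (p := fun A => ∀ E ∈ S, ∃ E' ∈ S, A * N E = N E' * A)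
      (fun E hE => ⟨E, hE, by simp⟩) (fun y hy A hA E hE => by
        obtain ⟨E', h1, h2⟩ := hA E hE
        obtain ⟨E'', h3, h4⟩ := s3 y hy E' h1
        exact ⟨E'', h3, by rw [h4, mul_assoc, h2, mul_assoc, ← mul_assoc (1 - N y) (1 - N y),
          rf_mul_self hy.1, one_mul, mul_assoc]⟩) hk
    simpa using this
  let L : Subgroup (GL (Fin 5) K) := G ⊓ (Submonoid.centralizer (N '' S)).units
  have mL : ∀ g, g ∈ L ↔ g ∈ G ∧ ∀ E ∈ S, N E * g.val = g.val * N E := fun g => by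
    refine and_congr_right fun _ => ⟨fun h E hE => h.1 _ ⟨E, hE, rfl⟩, fun h => ⟨?_, ?_⟩⟩ <;>
      rintro _ ⟨E, hE, rfl⟩
    exacts [h E hE, (Commute.units_inv_right (h E hE)).eq]
  obtain ⟨g, hg, e⟩ := hg
  obtain ⟨k, hk, c, rfl⟩ := mem_sup_scalars hg
  rcases hG.qp L inf_le_left (fun g hg a ha => (mL _).2 ⟨G.mul_mem (G.mul_mem hg ha.1) (G.inv_mem hg),
    fun E hE => by
      obtain ⟨E', h1, h2⟩ := p _ (G.inv_mem hg) E hE
      have h3 : N E * g.val = g.val * N E' := by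
        rw [← g.mul_inv_cancel_left (N E * _), ← mul_assoc (g⁻¹).val, h2, mul_assoc, g.inv_mul, mul_one]
      simp only [Units.val_mul]
      rw [mul_assoc _ _ (N E), h2, ← mul_assoc, ← mul_assoc, h3, mul_assoc g.val, ((mL a).1 ha).2 E' h1]
      simp only [mul_assoc]⟩) with q | q
  · refine not_mem_scalars_of_rk (a := 1) (by norm_num) E1 l1 (by rw [e, one_smul])
      (mul_mem (q ((mL k).2 ⟨hk, fun E' hE' => ?_⟩)) (scal_mem c))
    have : N E' * (k * scal _ c).val = (k * scal _ c).val * N E' := by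
      rw [e]
      rcases s2 E s0 E' hE' with o | o
      · simp [o, mul_add, add_mul]
      · simp [o.1, o.2, mul_add, add_mul]
    simpa using this
  · obtain ⟨c, hc⟩ := exists_smul_of_commute_gspan q.1 fun g hg => ((mL g).1 hg).2 E s0
    exact N_ne_smul_one (by norm_num) E1 c hc

theorem notTW {G : Subgroup (GL (Fin 5) K)} (hG : RS G) (h2 : (2 : K) ≠ 0) (h : Hom G)
    {r s t : R 5 K} (hr : Rf G r) : ¬ TW G r s t := fun ⟨_, ⟨A, w, pr, hw, h3, z, hz, ez⟩, prim⟩ => by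
  have AA : A * A = A := ext_of_mulVec_single fun i => by
    rw [← mulVec_mulVec]; exact (pr.l _ (pr.im (Pi.single i 1, 0))).1
  have w0 : w ≠ 0 := fun e => by simp [e] at hw
  have w2 : w ^ 2 ≠ 1 := fun e => h3 (by linear_combination (w - 1) * e - (w - 2) * hw)
  replace h := h A w AA w2 ⟨z, Subgroup.mem_sup_left hz, ez⟩
  obtain ⟨x, hx, x1⟩ : ∃ x, Rf G x ∧ x.2 ⬝ᵥ A *ᵥ x.1 = 1 := by
    by_contra! c
    obtain ⟨a, ha⟩ := smul_of_comm (fun _ h => h.1) (hG.gen_all hr).1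
      fun x hx => (h x hx).resolve_right (c x hx)
    have := (pr.l r (sup_1 ..)).1
    rw [ha, smul_mulVec, one_mulVec] at this
    rw [smul_left_injective K hr.2.1 (this.trans (one_smul _ _).symm), one_smul] at ha
    exact span_three_ne_top r.1 s.1 t.1 (eq_top_iff.2 fun v _ => by simpa [ha] using (pr.im (v, 0)).1)
  obtain ⟨f, hf⟩ : ∃ f, f = x.1 - A *ᵥ x.1 := ⟨_, rfl⟩
  obtain ⟨χ, hχ⟩ : ∃ χ, χ = x.2 - x.2 ᵥ* A := ⟨_, rfl⟩
  have Af : A *ᵥ f = 0 := by rw [hf, mulVec_sub, mulVec_mulVec, AA, sub_self]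
  have χA : χ ᵥ* A = 0 := by rw [hχ, sub_vecMul, vecMul_vecMul, AA, sub_self]
  have χf : χ ⬝ᵥ f = 1 := by
    rw [hf, dotProduct_sub, dotProduct_mulVec, χA, hχ, sub_dotProduct, ← dotProduct_mulVec, hx.1, x1]
    norm_num
  have o : ∀ y, Sup r s t y → y.2 ⬝ᵥ f = 0 ∧ χ ⬝ᵥ y.1 = 0 := fun y hy =>
    ⟨by rw [← (pr.l y hy).2, ← dotProduct_mulVec, Af, dotProduct_zero],
      by rw [← (pr.l y hy).1, dotProduct_mulVec, χA, zero_dotProduct]⟩
  have zi : (z⁻¹).val = 1 + (w⁻¹ - 1) • A := Units.inv_eq_of_mul_eq_one_right (by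
    simp only [ez, mul_add, add_mul, smul_mul_assoc, mul_smul_comm, AA, mul_one, one_mul]
    match_scalars <;> field_simp <;> ring)
  have hE : ∀ E, Sup r s t E → E.2 ⬝ᵥ E.1 = 1 → Rf G (E.1 + f, E.2 + χ) →
      In G ((1 + (w⁻¹ - 1) • N E) * (1 + (w - 1) • N (f, χ))) := fun ⟨e, ε⟩ s1 s2 s3 => by
    convert s3.isIn.mul (s3.conj hz).isIn using 1
    rw [show cg z (e + f, ε + χ) = (w • e + f, w⁻¹ • ε + χ) by
      simp only [cg, ez, zi, add_mulVec, mulVec_add, vecMul_add, add_vecMul, smul_mulVec, vecMul_smul,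
        Af, χA, (pr.l _ s1).1, (pr.l _ s1).2, one_mulVec, vecMul_one]
      refine Prod.ext ?_ ?_ <;> module]
    obtain ⟨o1, o2⟩ := o _ s1
    simp only at o1 o2 s2
    simp only [N_add_left, N_add_right, N_smul_left, N_smul_right, mul_add, add_mul, mul_sub, sub_mul,
      smul_mul_assoc, mul_smul_comm, N_mk_mul, o1, o2, s2, χf, mul_one, one_mul, smul_add]
    match_scalars <;> field_simp <;> ring
  obtain ⟨S, s1, s0, s2, s3⟩ := ortho (Y := {y | Rf G y ∧ Sup r s t y})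
    (F := {E | Sup r s t E ∧ E.2 ⬝ᵥ E.1 = 1 ∧ Rf G (E.1 + f, E.2 + χ)}) (fun _ h => h.2.1)
    (fun _ h => h.1.1) (fun y hy E hE => ⟨hy.2.cj hE.1, (cj_dot hy.1.1 _ _).trans hE.2.1, by
      convert hy.1.cj hE.2.2 using 1
      simp only [H41.LD.cj, dotProduct_add, add_dotProduct, o y hy.2, add_zero]
      refine Prod.ext ?_ ?_ <;> module⟩)
    (fun y hy E hE => by
      obtain ⟨y1, y2⟩ := pr.l y hy.2
      obtain ⟨e1, e2⟩ := pr.l E hE.1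
      obtain ⟨o1, o2⟩ := o y hy.2
      obtain ⟨o3, o4⟩ := o E hE.1
      have sa := hG.thin.sym hy.1 hE.2.2
      have sb := hG.thin.sym hE.2.2 hy.1
      have c := h _ (hE.2.2.cj hy.1)
      simp only [H41.LD.cj, dotProduct_add, add_dotProduct, o1, o2, add_zero, mul_N, N_mul, mulVec_sub,
        mulVec_add, mulVec_smul, sub_vecMul, add_vecMul, smul_vecMul, y1, y2, e1, e2, Af, χA] at sa sb c
      refine c.imp (fun c => ?_) fun c => ?_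
      · have c1 := congrArg (· *ᵥ f) c
        have c2 := congrArg (χ ᵥ* ·) c
        simp only [N_mulVec, vecMul_N, sub_dotProduct, dotProduct_sub, smul_dotProduct, dotProduct_smul,
          add_dotProduct, dotProduct_add, o1, o2, o3, o4, χf, smul_eq_mul] at c1 c2
        by_cases b : y.2 ⬝ᵥ E.1 = 0
        · simp [H41.LD.cj, b, sa b]
        have a := mt sb b
        have d1 : y.1 = (E.2 ⬝ᵥ y.1) • E.1 := by simpa [b, sub_eq_zero] using c1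
        have d2 : y.2 = (y.2 ⬝ᵥ E.1) • E.2 := by simpa [a, sub_eq_zero] using c2.symm
        refine fix_of_comm hy.1.1 ?_
        rw [show N y = N (_, _) from congrArg N (Prod.ext d1 d2), N_smul_left, N_smul_right]
        simp
      · simp only [sub_dotProduct, dotProduct_sub, smul_dotProduct, dotProduct_smul,
          add_dotProduct, o2, o4, hy.1.1, hE.2.1, smul_eq_mul] at c
        unfold cc
        linear_combination -c)
    (fun E a E' a' c => two (hG.tv h2) (inv_ne_zero w0) (by simpa using w2) a.2.1 a'.2.1 c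
      (hE E a.1 a.2.1 a.2.2) (hE E' a'.1 a'.2.1 a'.2.2)
      (by simp [add_mulVec, smul_mulVec, N_mulVec, vecMul_add, vecMul_smul, vecMul_N, o E a.1])
      (by simp [add_mulVec, smul_mulVec, N_mulVec, vecMul_add, vecMul_smul, vecMul_N, o E' a'.1]))
    (E₀ := (A *ᵥ x.1, x.2 ᵥ* A)) ⟨pr.im x, by
      rw [← dotProduct_mulVec, mulVec_mulVec, AA, x1], by simpa [hf, hχ] using hx⟩
  exact prim S ⟨_, s0⟩ (fun E h => ⟨(s1 h).1, (s1 h).2.1⟩) (fun E h E' h' => (s2 E h E' h').imp_right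
    (ot_iff (s1 h).2.1 (s1 h').2.1).1) fun y h1 h2 => s3 y ⟨h1, h2⟩

theorem jobOH : JobOH.{u} := fun _ _ _ hG h2 h ⟨_, hx⟩ =>
  ⟨noHom hG h2 h hx, fun _ _ _ hr _ => notTW hG h2 h hr.r1⟩

end H72.LD
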