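/- Job QM of `blueprints/C6P.md` (the case `r = 7`, `q = 8`). -/
import Cfsg.Agent.H53.C6Q8
import Cfsg.Agent.H72.C6A

set_option autoImplicit false
set_option linter.unusedSectionVars false

namespace H72.Q8

open Matrix Cfsg.Geo H25 H53.C6 Subgroup

universe u

variable {F : Type u} [Field F] [Finite F] {ω : Fˣ} {G : Subgroup (GL (ZMod 7) F)}
  {a a' : Fin 3 → F} {m m' : Matrix (Fin 3) (Fin 3) F}

theorem odm_inv {c : GL (ZMod 7) F} (hc : Commute c (tt F 7)) {X : Matrix (Fin 3) (Fin 3) F}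
    (e : odm 3 c.val * X = 1) : odm 3 (c⁻¹).val = X :=
  (congrArg Units.val (map_inv (od (F := F) half7) (⟨c, mem_cent_tt.2 hc⟩ : centralizer _))).trans
    (Units.inv_eq_of_mul_eq_one_right e)

theorem odm_mul {c d : GL (ZMod 7) F} (hc : Commute c (tt F 7)) (hd : Commute d (tt F 7)) :
    odm 3 (c * d).val = odm 3 c.val * odm 3 d.val :=
  congrArg Units.val (map_mul (od (F := F) half7) (⟨c, mem_cent_tt.2 hc⟩ : centralizer _)
    ⟨d, mem_cent_tt.2 hd⟩)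

theorem ke_zero (m : Matrix (Fin 3) (Fin 3) F) : ke 0 m = qm m := by simp [ke]

theorem Bv_ix (a : Fin 3 → F) (k : Fin 3) : (Bod F 7 3 *ᵥ a) (ix 7 k) = a k := by
  simp [mulVec, dotProduct, Bod, half7.ix_inj, half7.ne]

theorem Bv_neg (a : Fin 3 → F) (k : Fin 3) : (Bod F 7 3 *ᵥ a) (-ix 7 k) = -a k := by
  simp [mulVec, dotProduct, Bod, half7.ix_inj, (half7.ne _ _).symm]

theorem Bv_zero (a : Fin 3 → F) : (Bod F 7 3 *ᵥ a) 0 = 0 := by
  simp [mulVec, dotProduct, Bod, (half7.ne0 _).symm, half7.ne0]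

theorem e0_Bod : Pi.single 0 1 ᵥ* Bod F 7 3 = 0 := by
  ext k; simpa using half7.Bod_mul_zero (1 : Matrix (Fin 3) (Fin 3) F) k

theorem qm_Bod (h : (2 : F) = 0) (a : Fin 3 → F) : qm m *ᵥ (Bod F 7 3 *ᵥ a) = Bod F 7 3 *ᵥ a := by
  rw [qm, add_mulVec, one_mulVec, mulVec_mulVec, Matrix.mul_assoc, Bod_tr_Bod h]; simp

theorem e0_qm : Pi.single 0 1 ᵥ* qm m = Pi.single 0 1 := by
  rw [qm, vecMul_add, vecMul_one, ← vecMul_vecMul, ← vecMul_vecMul, e0_Bod]; simp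

theorem e0_dot (a : Fin 3 → F) : Pi.single 0 1 ⬝ᵥ (Bod F 7 3 *ᵥ a) = 0 := by
  rw [dotProduct_mulVec, e0_Bod, zero_dotProduct]

theorem ke_add (h : Q8 ω G) (h1 : In G (ke a m)) (h2 : In G (ke a' m')) :
    In G (ke (a + a') (m + m')) := by
  obtain ⟨g, hg, e⟩ := h1
  obtain ⟨g', hg', e'⟩ := h2
  refine ⟨_, mul_mem hg hg', ?_⟩
  rw [Units.val_mul, e, e', ke, ke, ke, add_mul, mul_add, mul_add, qm_mul h.two, mul_vecMulVec,
    qm_Bod h.two, vecMulVec_mul, e0_qm, vecMulVec_mul_vecMulVec, e0_dot, mulVec_add, add_vecMulVec]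
  simp only [zero_smul, vecMulVec_zero, add_zero]
  abel

theorem ke_conj {c : GL (ZMod 7) F} (hG : c ∈ G) (hc : Commute c (tt F 7)) (h1 : In G (ke a m)) :
    In G (qm (odm 3 c.val * m * odm 3 (c⁻¹).val) +
      vecMulVec (Bod F 7 3 *ᵥ (odm 3 c.val *ᵥ a)) (Pi.single 0 1 ᵥ* (c⁻¹).val)) := by
  obtain ⟨g, hg, e⟩ := h1
  refine ⟨_, mul_mem (mul_mem hG hg) (inv_mem hG), ?_⟩
  rw [Units.val_mul, Units.val_mul, e, ke, mul_add, add_mul, conj_qm hc, mul_vecMulVec, vecMulVec_mul,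
    mulVec_mulVec, half7.mul_Bod hc, mulVec_mulVec]

theorem odm_P : odm 3 (dp 7 ω 2).val = !![(ω : F), 0, 0; 0, ω ^ 4, 0; 0, 0, ω ^ 2] := by
  rw [dp, odm_dg half7]
  ext i j
  fin_cases i <;> fin_cases j <;> simp [w] <;> first | rfl | exact pow_one _

theorem ke_P (h : Q8 ω G) (h1 : In G (ke a m)) :
    In G (ke ![ω * a 0, ω ^ 4 * a 1, ω ^ 2 * a 2] !![m 0 0, ω ^ 4 * m 0 1, ω ^ 6 * m 0 2;
      ω ^ 3 * m 1 0, m 1 1, ω ^ 2 * m 1 2; ω * m 2 0, ω ^ 5 * m 2 1, m 2 2]) := by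
  have p := h.pow7 ω.ne_zero
  have := ke_conj h.base.p (comm_dp_tt 1) h1
  rw [odm_inv (comm_dp_tt 1) (X := !![(ω : F) ^ 6, 0, 0; 0, ω ^ 3, 0; 0, 0, ω ^ 5]) (by
    rw [odm_P]; ext i j; fin_cases i <;> fin_cases j <;> simp [← pow_add, ← pow_succ', p]),
    odm_P] at this
  convert this using 1
  rw [ke]
  congr 2
  · ext i j; fin_cases i <;> fin_cases j <;> simp [vecMul, dotProduct, mul_apply, Fin.sum_univ_three] <;> grind
  · congr 1; ext i; fin_cases i <;> simp [mulVec, dotProduct, Fin.sum_univ_three]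
  · rw [dp, ← map_inv, dg_val, single_vecMul_diagonal]; simp

/-- the matrix of the Fourier transform on the odd functions -/
def AA (ω : Fˣ) : Matrix (Fin 3) (Fin 3) F :=
  !![(ω : F) ^ 5, ω ^ 3, ω ^ 6; ω ^ 3, ω ^ 6, ω ^ 5; ω ^ 6, ω ^ 5, ω ^ 3]

theorem odm_A (h : Q8 ω G) : odm 3 (Ph 7 ω).val = AA ω := by
  have r := h.rel
  have t := h.two
  rw [odm_Ph7 h.fld.ord]
  ext i j; fin_cases i <;> fin_cases j <;> simp [AA] <;> grind

theorem AA_sq (h : Q8 ω G) : AA ω * AA ω = 1 := by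
  have r := h.rel
  have t := h.two
  ext i j; fin_cases i <;> fin_cases j <;> simp [AA, mul_apply, Fin.sum_univ_three] <;> grind

theorem Ph_sq' (h : Q8 ω G) : Ph 7 ω * Ph 7 ω = tt F 7 := by
  rw [Ph_sq h.fld.ord, show Units.mk0 _ (cast_ne_zero h.fld.ord) = 1 from Units.ext (by
    change ((7 : ℕ) : F) = 1; push_cast; linear_combination 3 * h.two), map_one, one_mul]

theorem ke_A (h : Q8 ω G) (h1 : In G (ke a m)) :
    In G (ke (AA ω *ᵥ a) (AA ω * m * AA ω + vecMulVec (AA ω *ᵥ a) 1)) := by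
  have c := comm_Ph_tt h.fld.ord
  have := ke_conj h.base.ph c h1
  rw [odm_inv c (X := AA ω) (by rw [odm_A h, AA_sq h]), odm_A h] at this
  convert this using 1
  have e : Pi.single 0 1 ᵥ* ((Ph 7 ω)⁻¹).val = Pi.single 0 1 + 1 ᵥ* (Bod F 7 3)ᵀ := by
    rw [show (Ph 7 ω)⁻¹ = Ph 7 ω * tt F 7 from inv_eq_of_mul_eq_one_right (by
      rw [← mul_assoc, Ph_sq' h, tt_mul_tt]), single_one_vecMul]
    ext j
    rw [row_apply, Units.val_mul, tt, hh, mul_pm_apply, Ph_apply h.fld.ord, zero_mul, w_zero,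
      vecMul_transpose]
    have t : (-1 : F) = 1 := by linear_combination -h.two
    rcases half7.cover j with rfl | ⟨k, rfl | rfl⟩ <;> simp [Bv_ix, Bv_neg, Bv_zero, half7.ne0, t]
  rw [e, ke, qm, qm, vecMulVec_add, Matrix.mul_add, Matrix.add_mul, mul_vecMulVec, vecMulVec_mul]
  abel

theorem qm_h (h : Q8 ω G) (h1 : In G (qm (diagonal a))) : In G (qm (diagonal ![a 2, a 0, a 1])) := by
  let u : (ZMod 7)ˣ := ⟨2, 4, by decide, by decide⟩
  have := ke_conj (a := 0) (h.base.hh u) (comm_hh_tt u) ((ke_zero (diagonal a)).symm ▸ h1 : In G (ke 0 (diagonal a)))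
  rw [odm_inv (comm_hh_tt u) (X := !![0, 1, 0; 0, 0, -1; -1, 0, 0]) (by
    rw [odm_h7 u rfl]; ext i j; fin_cases i <;> fin_cases j <;> simp), odm_h7 u rfl] at this
  convert this using 1
  simp only [mulVec_zero, zero_vecMulVec, add_zero]
  congr 1
  ext i j; fin_cases i <;> fin_cases j <;> simp [vecMul, dotProduct, mul_apply, Fin.sum_univ_three]

theorem qm_add (h : Q8 ω G) (h1 : In G (qm m)) (h2 : In G (qm m')) : In G (qm (m + m')) := by
  rw [← ke_zero] at h1 h2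
  simpa [ke_zero] using ke_add h h1 h2

theorem qm_P (h : Q8 ω G) (h1 : In G (qm m)) : In G (qm !![m 0 0, ω ^ 4 * m 0 1, ω ^ 6 * m 0 2;
    ω ^ 3 * m 1 0, m 1 1, ω ^ 2 * m 1 2; ω * m 2 0, ω ^ 5 * m 2 1, m 2 2]) := by
  rw [← ke_zero] at h1
  convert ke_P h h1 using 1
  rw [← ke_zero]
  congr 1
  ext i; fin_cases i <;> simp

theorem qm_A (h : Q8 ω G) (h1 : In G (qm m)) : In G (qm (AA ω * m * AA ω)) := by
  rw [← ke_zero] at h1
  simpa [ke_zero] using ke_A h h1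

theorem qm_diag (h : Q8 ω G) (h0 : In G (qm m)) : In G (qm (diagonal ![m 0 0, m 1 1, m 2 2])) := by
  have r := h.rel
  have t := h.two
  have h1 := qm_P h h0
  have h2 := qm_P h h1
  have h3 := qm_P h h2
  have h4 := qm_P h h3
  have h5 := qm_P h h4
  have h6 := qm_P h h5
  convert qm_add h (qm_add h (qm_add h (qm_add h (qm_add h (qm_add h h0 h1) h2) h3) h4) h5) h6 using 2
  clear h0 h1 h2 h3 h4 h5 h6
  ext i j; fin_cases i <;> fin_cases j <;> simp <;> grind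

theorem lam (h : Q8 ω G) (s : SS ω G) (n : ¬ Big G) (h0 : In G (qm (diagonal a))) :
    ω ^ 4 * a 0 + ω ^ 2 * a 1 + ω * a 2 = 0 := by
  have r := h.rel
  have t := h.two
  refine by_contra fun c => n (s.tl _ c ?_)
  convert qm_diag h (qm_add h (qm_A h h0) h0) using 3
  ext i; fin_cases i <;> simp [AA, vecMul, dotProduct, mul_apply, Fin.sum_univ_three] <;> grind

theorem dia (h : Q8 ω G) (s : SS ω G) (n : ¬ Big G) (h0 : In G (qm m)) :
    m 0 0 = m 1 1 ∧ m 1 1 = m 2 2 ∧ (m 0 0 = 0 ∨ m 0 0 = 1) := by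
  have r := h.rel
  have t := h.two
  have h1 := qm_diag h h0
  have e1 := lam h s n h1
  have e2 := lam h s n (qm_h h h1)
  simp only [cons_val_zero, cons_val_one, cons_val] at e1 e2
  have a1 : m 0 0 = m 1 1 := by clear h0 h1; grind
  have a2 : m 1 1 = m 2 2 := by clear h0 h1; grind
  refine ⟨a1, a2, by_contra fun c => n (s.sc _ (not_or.1 c).1 (not_or.1 c).2 ?_)⟩
  convert h1 using 2
  ext i j; fin_cases i <;> fin_cases j <;> simp [← a2, ← a1]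

theorem eqA (h : Q8 ω G) (s : SS ω G) (n : ¬ Big G) (h0 : In G (qm m)) :
    ω ^ 4 * (m 0 1 + m 1 0) + ω ^ 2 * (m 0 2 + m 2 0) + ω * (m 1 2 + m 2 1) = 0 := by
  have r := h.rel
  have t := h.two
  obtain ⟨a1, a2, -⟩ := dia h s n h0
  have e := (dia h s n (qm_A h h0)).1
  clear h0
  simp [AA, vecMul, dotProduct, mul_apply, Fin.sum_univ_three, ← a2, ← a1] at e
  grind

theorem jobQM : JobQM.{u} := fun F _ _ ω G h s => or_iff_not_imp_left.2 fun n m h0 => by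
  have r := h.rel
  have t := h.two
  have h1 := qm_P h h0
  have h2 := qm_P h h1
  have h3 := qm_P h h2
  have h4 := qm_P h h3
  have h5 := qm_P h h4
  obtain ⟨a1, a2, a3⟩ := dia h s n h0
  have e0 := eqA h s n h0
  have e1 := eqA h s n h1
  have e2 := eqA h s n h2
  have e3 := eqA h s n h3
  have e4 := eqA h s n h4
  have e5 := eqA h s n h5
  have e6 := eqA h s n (qm_P h h5)
  clear h0 h1 h2 h3 h4 h5
  simp only [of_apply, cons_val', cons_val_zero, cons_val_one, cons_val, cons_val_fin_one]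
    at e1 e2 e3 e4 e5 e6
  have b1 : m 0 1 = 0 := by
    linear_combination (norm := (clear e0 e1 e2 e3 e4 e5 e6; grind))
      (ω : F) ^ 3 * e0 + (ω : F) ^ 6 * e1 + (ω : F) ^ 2 * e2 + (ω : F) ^ 5 * e3 + (ω : F) ^ 1 * e4 + (ω : F) ^ 4 * e5 + (ω : F) ^ 0 * e6
  have b2 : m 0 2 = 0 := by
    linear_combination (norm := (clear e0 e1 e2 e3 e4 e5 e6; grind))
      (ω : F) ^ 5 * e0 + (ω : F) ^ 6 * e1 + (ω : F) ^ 0 * e2 + (ω : F) ^ 1 * e3 + (ω : F) ^ 2 * e4 + (ω : F) ^ 3 * e5 + (ω : F) ^ 4 * e6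
  have b3 : m 1 0 = 0 := by
    linear_combination (norm := (clear e0 e1 e2 e3 e4 e5 e6; grind))
      (ω : F) ^ 3 * e0 + (ω : F) ^ 0 * e1 + (ω : F) ^ 4 * e2 + (ω : F) ^ 1 * e3 + (ω : F) ^ 5 * e4 + (ω : F) ^ 2 * e5 + (ω : F) ^ 6 * e6
  have b4 : m 1 2 = 0 := by
    linear_combination (norm := (clear e0 e1 e2 e3 e4 e5 e6; grind))
      (ω : F) ^ 6 * e0 + (ω : F) ^ 4 * e1 + (ω : F) ^ 2 * e2 + (ω : F) ^ 0 * e3 + (ω : F) ^ 5 * e4 + (ω : F) ^ 3 * e5 + (ω : F) ^ 1 * e6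
  have b5 : m 2 0 = 0 := by
    linear_combination (norm := (clear e0 e1 e2 e3 e4 e5 e6; grind))
      (ω : F) ^ 5 * e0 + (ω : F) ^ 4 * e1 + (ω : F) ^ 3 * e2 + (ω : F) ^ 2 * e3 + (ω : F) ^ 1 * e4 + (ω : F) ^ 0 * e5 + (ω : F) ^ 6 * e6
  have b6 : m 2 1 = 0 := by
    linear_combination (norm := (clear e0 e1 e2 e3 e4 e5 e6; grind))
      (ω : F) ^ 6 * e0 + (ω : F) ^ 1 * e1 + (ω : F) ^ 3 * e2 + (ω : F) ^ 5 * e3 + (ω : F) ^ 0 * e4 + (ω : F) ^ 2 * e5 + (ω : F) ^ 4 * e6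
  refine a3.imp (fun c => ?_) fun c => ?_ <;> ext i j <;> fin_cases i <;> fin_cases j <;>
    simp [← a2, ← a1, c, b1, b2, b3, b4, b5, b6]

end H72.Q8
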