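/- Jobs QX, QY, QK of `blueprints/C6P.md` (the case `r = 7`, `q = 8`). -/
import Cfsg.Agent.H72.Q8A

set_option autoImplicit false
set_option linter.unusedSectionVars false

namespace H72.Q8

open Matrix Cfsg.Geo H25 H53.C6 Subgroup

universe u

variable {F : Type u} [Field F] [Finite F] {ω : Fˣ} {G : Subgroup (GL (ZMod 7) F)}
  {a a' : Fin 3 → F} {m m' : Matrix (Fin 3) (Fin 3) F}

theorem fa3 {P : Fin 3 → Prop} : (∀ i, P i) ↔ P 0 ∧ P 1 ∧ P 2 :=
  ⟨fun h => ⟨h 0, h 1, h 2⟩, fun h i => by fin_cases i; exacts [h.1, h.2.1, h.2.2]⟩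

theorem shape (h : Q8 ω G) (mm : MM G) (h0 : In G (ke a m)) : m 0 0 = m 1 1 ∧ m 1 1 = m 2 2 ∧
    (m 0 0 = 0 ∨ m 0 0 = 1) ∧ m 0 2 = 0 ∧ m 1 0 = 0 ∧ m 2 1 = 0 := by
  have r := h.rel
  have t := h.two
  have h1 := ke_P h h0
  have h3 := ke_add h (ke_add h h0 h1) (ke_P h (ke_P h h1))
  rw [show _ + _ + _ = (0 : Fin 3 → F) by
    clear h0 h1 h3
    simp only [funext_iff, fa3, Pi.add_apply, cons_val_zero, cons_val_one, cons_val, Pi.zero_apply]
    grind, ke_zero] at h3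
  have k := mm _ h3
  clear h0 h1 h3
  simp only [← Matrix.ext_iff, fa3, Matrix.add_apply, of_apply, cons_val', cons_val_zero,
    cons_val_one, cons_val, cons_val_fin_one, Matrix.zero_apply, one_apply, Fin.reduceEq, if_true,
    if_false] at k
  rcases k with k | k <;> grind

theorem rel (h : Q8 ω G) (mm : MM G) (h0 : In G (ke a m)) : m 0 1 = a 1 ∧ m 1 2 = a 2 ∧
    m 2 0 = a 0 ∧ (a 0 + a 1 + a 2 = 0 ∨ a 0 + a 1 + a 2 = 1) := by
  have r := h.rel
  have t := h.two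
  obtain ⟨a1, a2, a3, a4, a5, a6⟩ := shape h mm h0
  obtain ⟨e1, e2, e3, -, -, e6⟩ := shape h mm (ke_A h h0)
  clear h0
  simp only [AA, Matrix.add_apply, mulVec, dotProduct, mul_apply, vecMulVec_apply,
    Fin.sum_univ_three, ← a2, ← a1, a4, a5, a6, of_apply, cons_val', cons_val_zero, cons_val_one,
    cons_val, cons_val_fin_one, Pi.one_apply] at e1 e2 e3 e6
  have b1 : m 0 1 = a 1 := by
    linear_combination (norm := (clear e1 e2 e3 e6 a3; grind)) e6 + ω ^ 3 * e1 + ω ^ 4 * e2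
  have b2 : m 1 2 = a 2 := by
    linear_combination (norm := (clear e1 e2 e3 e6 a3; grind)) e6 + ω ^ 6 * e1 + ω * e2
  have b3 : m 2 0 = a 0 := by
    linear_combination (norm := (clear e1 e2 e3 e6 a3; grind)) e6 + ω ^ 5 * e1 + ω ^ 2 * e2
  refine ⟨b1, b2, b3, ?_⟩
  rw [b1, b2, b3] at e3
  clear e1 e2 e6
  rcases a3 with a3 | a3 <;> rcases e3 with e3 | e3 <;> grind

theorem rel2 (h : Q8 ω G) (mm : MM G) (h0 : In G (ke a m)) : a 1 = a 0 ^ 4 ∧ a 2 = a 0 ^ 2 := by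
  have r := h.rel
  have t := h.two
  have e0 := (rel h mm h0).2.2.2
  have e1 := (rel h mm (ke_P h h0)).2.2.2
  have e2 := (rel h mm (ke_P h (ke_P h h0))).2.2.2
  clear h0
  simp only [cons_val_zero, cons_val_one, cons_val] at e1 e2
  rcases e0 with e0 | e0 <;> rcases e1 with e1 | e1 <;> rcases e2 with e2 | e2 <;> grind

theorem jobQX : JobQX.{u} := fun F _ _ ω G h ex mm a m h0 => by
  have key : ∀ (n : ℕ) a m, In G (ke a m) → (ω : F) ^ n * a 0 ≠ 1 := fun n => by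
    induction n with
    | succ n ih => exact fun a m h0 e => ih _ _ (ke_P h h0) (by rw [← e, pow_succ _ n, mul_assoc]; rfl)
    | zero =>
      intro a m h0 e
      rw [pow_zero, one_mul] at e
      obtain ⟨a1, a2, a3, a4, a5, a6⟩ := shape h mm h0
      obtain ⟨b1, b2, b3, -⟩ := rel h mm h0
      obtain ⟨c1, c2⟩ := rel2 h mm h0
      have ha : a = ![1, 1, 1] := by ext i; fin_cases i <;> simp [c1, c2, e]
      rcases a3 with a3 | a3
      · suffices hm : m = !![0, 1, 0; 0, 0, 1; 1, 0, 0] from ex (by rw [← ha, ← hm]; exact h0)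
        ext i j; fin_cases i <;> fin_cases j <;> simp [← a2, ← a1, a3, a4, a5, a6, b1, b2, b3, ha]
      · have h1 := ke_add h h0 (a' := 0) (m' := 1) ⟨_, h.base.tt, by rw [ke_zero, qm_one h.two]⟩
        rw [add_zero] at h1
        suffices hm : m + 1 = !![0, 1, 0; 0, 0, 1; 1, 0, 0] from ex (by rw [← ha, ← hm]; exact h1)
        ext i j; fin_cases i <;> fin_cases j <;>
          simp [← a2, ← a1, a3, a4, a5, a6, b1, b2, b3, ha, one_add_one_eq_two, h.two]
  have a0 : a 0 = 0 := by_contra fun c => by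
    obtain ⟨i, hi⟩ := h.exists_w (Units.mk0 _ c)⁻¹
    exact key i.val a m h0 (by
      rw [← Units.val_pow_eq_pow_val, ← w, ← hi]; simp [c])
  obtain ⟨c1, c2⟩ := rel2 h mm h0
  ext i; fin_cases i <;> simp [c1, c2, a0]

/-- the exponents of the diagonal elements -/
def WS (h : orderOf ω = 7) (G : Subgroup (GL (ZMod 7) F)) : Submodule (ZMod 7) (ZMod 7 → ZMod 7) where
  carrier := {φ | dg (fun i => w ω (φ i)) ∈ G}
  add_mem' := fun {a b} ha hb => by
    have := G.mul_mem ha hb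
    rw [← map_mul] at this
    exact (congrArg (fun v => dg v ∈ G) (funext fun i => w_add h _ _)).mpr this
  zero_mem' := by simpa [dg_const] using G.one_mem
  smul_mem' := fun c φ ha => by
    have := G.pow_mem ha c.val
    rw [← map_pow] at this
    exact (congrArg (fun v => dg v ∈ G) (funext fun i => by simp [w_pow h])).mpr this

theorem WS_af (h : Q8 ω G) {φ : ZMod 7 → ZMod 7} (h1 : φ ∈ WS h.fld.ord G) (a : (ZMod 7)ˣ)
    (b : ZMod 7) : (fun i => φ ((a⁻¹ : (ZMod 7)ˣ) * (i - b))) ∈ WS h.fld.ord G := by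
  have := h.base.conj a b h1
  rwa [pm_conj_dg] at this

theorem z1 : ∀ x y z : ZMod 7, ∃ α β γ : ZMod 7, x = α + β + γ ∧ y = 4 * α + 2 * β + γ ∧
    z = 2 * α + 4 * β + γ := fun x y z =>
  ⟨5 * (x + 2 * y + 4 * z), 5 * (x + 4 * y + 2 * z), 5 * (x + y + z), by revert x y z; decide⟩

theorem z2 : ∀ α β γ : ZMod 7, ∀ k : Fin 3, α * ix 7 k ^ 2 + β * ix 7 k ^ 4 + γ * ix 7 k ^ 6 =
    ![α + β + γ, 4 * α + 2 * β + γ, 2 * α + 4 * β + γ] k := by decide

theorem z3 : ∀ β γ i : ZMod 7, β * i ^ 4 = β * (2 * (i - 0)) ^ 4 + γ * (2 * (i - 0)) ^ 6 -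
    (β * i ^ 4 + γ * i ^ 6) := by decide

theorem z4 : ∀ i : ZMod 7, i ^ 4 = ∑ b : ZMod 7, -b ^ 4 * (1 * (i - b)) ^ 6 := by decide

theorem z5 : ∀ i j : ZMod 7, i ^ 2 = j ^ 2 → j = i ∨ j = -i := by decide

theorem z6 : ∀ i : ZMod 7, i ≠ 0 → i ≠ -i := by decide

theorem ev (h : Q8 ω G) (n4 : dp 7 ω 4 ∉ G) {v : ZMod 7 → Fˣ} (hv : dg v ∈ G)
    (c : Commute (dg v) (tt F 7)) : ∃ (c : Fˣ) (n : ℕ), dg v = sc _ c * dp 7 ω 2 ^ n := by
  have : Fact (Nat.Prime 7) := ⟨by norm_num⟩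
  have o := h.fld.ord
  choose φ hφ using fun i => h.exists_w ((v 0)⁻¹ * v i)
  have e : ∀ i, v (-i) = v i := fun i => Units.ext (by simpa [dg_val] using comm_tt_iff.1 c i i)
  have h0 : φ ∈ WS o G := by
    have := mul_mem (h.base.sc (v 0)⁻¹) hv
    rw [← dg_const, ← map_mul] at this
    exact (congrArg (fun v => dg v ∈ G) (funext hφ)).mp this
  obtain ⟨α, β, γ, e1, e2, e3⟩ := z1 (φ 1) (φ 2) (φ 3)
  have h1 : ∀ i, φ i = α * i ^ 2 + β * i ^ 4 + γ * i ^ 6 := fun i => by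
    have k : ∀ k : Fin 3, φ (ix 7 k) = α * ix 7 k ^ 2 + β * ix 7 k ^ 4 + γ * ix 7 k ^ 6 := fun k => by
      rw [z2]; fin_cases k; exacts [e1, e2, e3]
    rcases half7.cover i with rfl | ⟨j, rfl | rfl⟩
    · simpa [w_eq_one_iff o] using (hφ 0).symm
    · exact k j
    · rw [(w_inj o).1 (show w ω (φ (-ix 7 j)) = w ω (φ (ix 7 j)) by rw [← hφ, e, hφ]), k]; ring
  have h2 : (fun i => β * i ^ 4 + γ * i ^ 6) ∈ WS o G := by
    convert sub_mem h0 (Submodule.smul_mem _ α (show (fun i => i ^ 2) ∈ WS o G from h.base.p)) using 1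
    ext i; simp [h1]; ring
  have sm : ∀ (c : ZMod 7) (k : ℕ), (fun i => c * i ^ k) ∈ WS o G → c ≠ 0 →
      (fun i => i ^ k) ∈ WS o G := fun c k hk c0 => by
    convert Submodule.smul_mem _ c⁻¹ hk using 1
    ext i; simp [c0]
  obtain rfl : β = 0 := by_contra fun c0 => n4 (sm β 4 (by
    convert sub_mem (WS_af h h2 ⟨4, 2, rfl, rfl⟩ 0) h2 using 1
    exact funext (z3 β γ)) c0)
  obtain rfl : γ = 0 := by_contra fun c0 => n4 (show (fun i => i ^ 4) ∈ WS o G by
    convert Submodule.sum_mem _ fun b (_ : b ∈ Finset.univ) => Submodule.smul_mem _ (-b ^ 4)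
      (WS_af h (sm γ 6 (by simpa using h2) c0) 1 b) using 1
    ext i; rw [Finset.sum_apply]; exact z4 i)
  refine ⟨v 0, α.val, ?_⟩
  rw [H72.C6.sc_dp o]
  congr 1; ext1 i
  rw [← inv_mul_eq_iff_eq_mul, hφ, h1]; simp

theorem qm_tr : (qm m)ᵀ = qm mᵀ := by simp [qm, transpose_mul, Matrix.mul_assoc]

theorem dec (h : (2 : F) = 0) {k : GL (ZMod 7) F} (c : Commute k (tt F 7)) (e : odm 3 k.val = 1)
    (e0 : k.val 0 0 = 1) : k.val = ke (fun i => k.val (ix 7 i) 0) (of fun i j => k.val (ix 7 i) (-ix 7 j)) +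
      vecMulVec (Pi.single 0 1) (Bod F 7 3 *ᵥ fun i => k.val 0 (ix 7 i)) := by
  have s := comm_tt_iff.1 c
  have t : ∀ x : F, -x = x := fun x => by linear_combination -x * h
  have s0 : ∀ i, k.val 0 (-i) = k.val 0 i := fun i => by simpa using s 0 i
  have s1 : ∀ i, k.val (-i) 0 = k.val i 0 := fun i => by simpa using s i 0
  have s2 : ∀ i j, k.val (-i) j = k.val i (-j) := fun i j => by simpa using s i (-j)
  have s3 : ∀ i j, k.val (ix 7 i) (ix 7 j) = (if i = j then 1 else 0) + k.val (ix 7 i) (-ix 7 j) :=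
    fun i j => by simpa [odm, one_apply, sub_eq_iff_eq_add] using congrFun (congrFun e i) j
  ext i j
  have b : ∀ (A : Matrix (ZMod 7) (Fin 3) F) i j, (A * (Bod F 7 3)ᵀ) i j = (Bod F 7 3 *ᵥ A i) j :=
    fun A i j => by simp [mul_apply, mulVec, dotProduct, mul_comm]
  simp only [ke, qm, Matrix.add_apply, vecMulVec_apply, b]
  rcases half7.cover i with rfl | ⟨i, rfl | rfl⟩ <;> rcases half7.cover j with rfl | ⟨j, rfl | rfl⟩ <;>
    simp [Bv_ix, Bv_neg, Bv_zero, half7.Bod_mul_ix, half7.Bod_mul_neg, half7.Bod_mul_zero, half7.ne0,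
      (half7.ne0 _).symm, half7.ne, (half7.ne _ _).symm, half7.ix_inj, one_apply, e0, s0, s1, s2, t,
      ← s3]

theorem sq_row {y : GL (ZMod 7) F} (o : orderOf ω = 7) (c : Commute y (dp 7 ω 2)) {i j : ZMod 7}
    (h1 : j ≠ i) (h2 : j ≠ -i) : y.val i j = 0 :=
  eq_zero_of_comm_dg c fun e => (z5 _ _ ((w_inj o).1 e)).elim h1 h2

theorem sq_apply {y : GL (ZMod 7) F} (o : orderOf ω = 7) (c : Commute y (dp 7 ω 2)) {i : ZMod 7}
    (h0 : i ≠ 0) (j : ZMod 7) :
    (y * y).val i j = y.val i i * y.val i j + y.val i (-i) * y.val (-i) j := by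
  rw [Units.val_mul, mul_apply]
  exact Fintype.sum_eq_add _ _ (z6 i h0) fun x hx => by rw [sq_row o c hx.1 hx.2, zero_mul]

theorem jobQY : JobQY.{u} := fun F _ _ ω G h n4 mm y hy cp ct => by
  have o := h.fld.ord
  have t := h.two
  obtain ⟨μ, hμ⟩ := exists_dg (g := y * y) fun i j ij => by
    by_cases e : j = -i
    · rw [e, sq_apply o cp (by rintro rfl; exact ij (by simp [e])), comm_tt_iff.1 ct]
      linear_combination y.val i i * y.val i (-i) * t
    · exact sq_row o (cp.mul_left cp) (Ne.symm ij) e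
  have e8 : y * y ^ 7 = dg (μ ^ 4) := by rw [map_pow, ← hμ, ← pow_two, ← pow_mul, ← pow_succ']
  obtain ⟨c, n, e⟩ := ev h n4 (e8 ▸ mul_mem hy (pow_mem hy 7)) (e8 ▸ ct.mul_left (ct.pow_left 7))
  have q2 : y ^ 7 * y ^ 7 = 1 := by
    rw [← (Commute.refl y).mul_pow, hμ, ← map_pow, ← map_one dg]
    congr 1; ext i; simpa using h.pow7 (μ i).ne_zero
  have qp := cp.pow_left 7
  have qt := ct.pow_left 7
  have hq := pow_mem hy 7
  generalize y ^ 7 = q at *
  have k := dec t qt (by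
    ext i j
    by_cases ij : i = j
    · have := sq_apply o qp (half7.ne0 i) (ix 7 i)
      rw [q2, ← comm_tt_iff.1 qt (-ix 7 i), neg_neg, Units.val_one, one_apply_eq] at this
      subst ij
      simp only [odm, of_apply, one_apply_eq]
      grind
    · simp [odm, ij, sq_row o qp (mt half7.ix_inj.1 (Ne.symm ij)) (half7.ne _ _),
        sq_row o qp (half7.ne _ _).symm (mt (half7.ix_inj.1 <| neg_inj.1 ·) (Ne.symm ij))]) (by
    have := congrArg (fun g : GL (ZMod 7) F => g.val 0 0) q2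
    simp only [Units.val_mul, mul_apply, Units.val_one, one_apply_eq] at this
    rw [Fintype.sum_eq_single 0 fun x hx => by rw [sq_row o qp hx (by simpa), zero_mul]] at this
    grind)
  rw [show (fun i => q.val (ix 7 i) 0) = 0 from funext fun i =>
      sq_row o qp (half7.ne0 i).symm (by simpa using half7.ne0 i),
    show (fun i => q.val 0 (ix 7 i)) = 0 from funext fun i =>
      sq_row o qp (half7.ne0 i) (by simpa using half7.ne0 i), ke_zero, mulVec_zero, vecMulVec_zero,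
    add_zero] at k
  refine ⟨c, n, (mm _ ⟨q, hq, k⟩).imp (fun z => ?_) fun z => ?_⟩
  · rw [z, qm_zero] at k
    rw [← e, ← e8, show q = 1 from Units.ext k, mul_one]
  · rw [z, qm_one t] at k
    rw [← e, ← e8, show q = tt F 7 from Units.ext k, mul_assoc, tt_mul_tt, mul_one]

theorem sum_even (h : (2 : F) = 0) {f : ZMod 7 → F} (hf : ∀ j, f (-j) = f j) : ∑ j, f j = f 0 := by
  rw [show ∑ j, f j = f 0 + f 1 + f 2 + f 3 + f (-3) + f (-2) + f (-1) from Fin.sum_univ_seven f,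
    hf, hf, hf]
  linear_combination (f 1 + f 2 + f 3) * h

theorem k00 (h : Q8 ω G) (yp : YP ω G) {k : GL (ZMod 7) F} (hk : k ∈ H72.C6.K0 G) : k.val 0 0 = 1 := by
  have : Fact (Nat.Prime 7) := ⟨by norm_num⟩
  have nd := H15.KF.not_dvd_of_isPGroup_inf (p := 2) (q := 7) (by decide) (H72.C6.pP h.fld)
    (zpowers_le.2 (H72.C6.K0_nor h.base.p (comm_dp_tt 1))) (H98.isPGroup_iff_forall.2 fun x hx => ⟨1, by
      rcases H72.C6.K0_cen h.fld yp hx.1 (hx.2 _ (mem_zpowers _)).symm with h | h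
      · rw [h, one_pow]
      · rw [h, pow_one, H72.C6.neg_tt_sq]⟩)
  have p : ∀ n : ℕ, (k ^ n).val 0 0 = k.val 0 0 ^ n := fun n => by
    induction n with
    | zero => simp
    | succ n ih =>
      rw [pow_succ, Units.val_mul, mul_apply, sum_even h.two, ih, pow_succ]
      intro j
      rw [← comm_tt_iff.1 (hk.2.1.pow_left n) 0, ← comm_tt_iff.1 hk.2.1 j 0, neg_zero, neg_neg]
  have h1 := p (Nat.card (H72.C6.K0 G))
  rw [show k ^ _ = 1 from congrArg Subtype.val (pow_card_eq_one' (x := (⟨k, hk⟩ : H72.C6.K0 G))),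
    Units.val_one, one_apply_eq] at h1
  have h2 := h.pow7 (a := k.val 0 0) fun e => by
    rw [e, zero_pow Nat.card_pos.ne'] at h1; exact one_ne_zero h1
  simpa [(this.out.coprime_iff_not_dvd.2 nd).gcd_eq_one] using pow_gcd_eq_one.2 ⟨h2, h1.symm⟩

/-- the transposed matrix -/
def tr (g : GL (ZMod 7) F) : GL (ZMod 7) F :=
  ⟨g.valᵀ, (g⁻¹).valᵀ, by rw [← transpose_mul]; simp, by rw [← transpose_mul]; simp⟩

/-- the transposed group -/
def trG (G : Subgroup (GL (ZMod 7) F)) : Subgroup (GL (ZMod 7) F) where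
  carrier := {g | tr g ∈ G}
  one_mem' := (congrArg (· ∈ G) (show tr 1 = 1 from Units.ext transpose_one)).mpr G.one_mem
  mul_mem' := fun {a b} ha hb => (congrArg (· ∈ G)
    (show tr (a * b) = tr b * tr a from Units.ext (transpose_mul _ _))).mpr (G.mul_mem hb ha)
  inv_mem' := fun ha => G.inv_mem ha

theorem trG_q8 (h : Q8 ω G) : Q8 ω (trG G) := by
  have d : ∀ v, dg v ∈ G → dg v ∈ trG G := fun v hv => (congrArg (· ∈ G)
    (show tr (dg v) = dg v from Units.ext (diagonal_transpose _))).mpr hv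
  refine ⟨h.fld, ⟨fun c => dg_const (ι := ZMod 7) c ▸ d _ (dg_const (ι := ZMod 7) c ▸ h.base.sc c),
    fun a b => ?_, d _ h.base.d, d _ h.base.p, ?_⟩, h.card, h.rel⟩
  · refine (congrArg (· ∈ G) (show tr _ = _ from Units.ext ?_)).mpr (G.inv_mem (h.base.af a b))
    ext i j
    rw [← map_inv, pm_apply]
    simp only [tr, transpose_apply, pm_apply, Equiv.Perm.eq_inv_iff_eq, eq_comm]
  · refine (congrArg (· ∈ G) (show tr _ = _ from Units.ext ?_)).mpr h.base.ph
    ext i j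
    simp only [tr, transpose_apply, Ph_apply h.fld.ord, mul_comm]

theorem k_sq (h : (2 : F) = 0) : (ke a m + vecMulVec (Pi.single 0 1) (Bod F 7 3 *ᵥ a')) *
    (ke a m + vecMulVec (Pi.single 0 1) (Bod F 7 3 *ᵥ a')) = qm (vecMulVec a a') := by
  have t : ∀ M : Matrix (ZMod 7) (ZMod 7) F, M + M = 0 := fun M => by rw [← two_smul F, h, zero_smul]
  have e1 : qm m *ᵥ Pi.single 0 1 = Pi.single 0 1 := by rw [← vecMul_transpose, qm_tr, e0_qm]
  have e2 : (Bod F 7 3 *ᵥ a') ᵥ* qm m = Bod F 7 3 *ᵥ a' := by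
    rw [← mulVec_transpose, qm_tr, qm_Bod h]
  have e3 : (Bod F 7 3 *ᵥ a') ⬝ᵥ (Bod F 7 3 *ᵥ a) = 0 := by
    rw [dotProduct_mulVec, vecMul_mulVec, Bod_tr_Bod h]; simp
  have e4 : qm m * qm m = 1 := by rw [qm_mul h, ← two_smul F, h, zero_smul, qm_zero]
  simp only [ke, add_mul, mul_add, e4, mul_vecMulVec, vecMulVec_mul, qm_Bod h, e0_qm, e1, e2,
    vecMulVec_mulVec, e3, Bv_zero, dotProduct_comm (Bod F 7 3 *ᵥ a') (Pi.single 0 1),
    MulOpposite.op_zero, zero_smul, zero_vecMulVec, single_one_dotProduct, Pi.single_eq_same,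
    MulOpposite.op_one, one_smul, add_zero, zero_add]
  rw [qm, mul_vecMulVec, vecMulVec_mul, vecMul_transpose]
  linear_combination (norm := abel) t (vecMulVec (Bod F 7 3 *ᵥ a) (Pi.single 0 1)) +
    t (vecMulVec (Pi.single 0 1) (Bod F 7 3 *ᵥ a'))

theorem jobQK : JobQK.{u} := fun ss qx F _ _ ω G h nb mm yp k hk c e => by
  have t := h.two
  have d := dec t c e (k00 h yp ⟨hk, c, (odm_eq_one_iff half7 c).1 e⟩)
  generalize (fun i => k.val (ix 7 i) 0) = a, (fun i => k.val 0 (ix 7 i)) = α,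
    (of fun i j => k.val (ix 7 i) (-ix 7 j)) = m at d
  have h1 : a = 0 ∨ α = 0 := by
    rcases mm _ ⟨_, mul_mem hk hk, by rw [Units.val_mul, d, k_sq t]⟩ with z | z
    · exact vecMulVec_eq_zero.1 z
    · have z1 := congrFun (congrFun z 0) 0
      have z2 := congrFun (congrFun z 0) 1
      have z3 := congrFun (congrFun z 1) 1
      simp only [vecMulVec_apply, one_apply, Fin.reduceEq, if_true, if_false] at z1 z2 z3
      grind
  obtain ⟨rfl, rfl⟩ : a = 0 ∧ α = 0 := by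
    rcases h1 with rfl | rfl
    · have h' := trG_q8 h
      refine ⟨rfl, qx F ω _ h' (mt (ss F ω _ h').ex fun b => nb fun g hg => b (x := tr g) ?_)
        (fun m ⟨g, hg, e⟩ => ?_) α mᵀ ⟨tr k, hk, ?_⟩⟩
      · exact mem_specialLinear.2 ((det_transpose g.val).trans (mem_specialLinear.1 hg))
      · simpa using mm mᵀ ⟨_, hg, by rw [← qm_tr, ← e]; rfl⟩
      · rw [ke, ← qm_tr, ← transpose_vecMulVec, ← transpose_add, ← ke_zero, ← d]; rfl
    · exact ⟨qx F ω G h (mt (ss F ω G h).ex nb) mm a m ⟨k, hk, by simpa using d⟩, rfl⟩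
  rw [ke_zero, mulVec_zero, vecMulVec_zero, add_zero] at d
  exact (mm _ ⟨k, hk, d⟩).imp (fun z => Units.ext (by rw [d, z, qm_zero]; rfl))
    fun z => Units.ext (by rw [d, z, qm_one t])

end H72.Q8
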